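import Cfsg.Agent.H6.G3c
import Cfsg.Agent.H6.CoxA
/-! General theory of 3-transposition groups: small cases. -/
set_option autoImplicit false
set_option linter.unusedSectionVars false
namespace H6
open Cfsg Subgroup H0
variable {G : Type*} [Group G] {D : Set G}

theorem CoxA.inj3 {s : ℕ → G} (h : CoxA s 3) (h02 : s 0 ≠ s 2) :
    ∃ θ : Equiv.Perm (Fin 4) →* G, Function.Injective θ ∧ (∀ i < 3, θ (sw 3 i) = s i) ∧ θ.range = gen s (lets 3) := by
  obtain ⟨θ, h1, h2⟩ := h.hom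
  refine ⟨θ, (injective_iff_map_eq_one θ).2 fun σ k => ?_, h1, h2⟩
  refine ((by decide +kernel : ∀ σ : Equiv.Perm (Fin 4), σ = 1 ∨ ∃ κ, κ * σ * κ⁻¹ = sw 3 0 * sw 3 2 ∨
    ∃ τ, κ * σ * κ⁻¹ * (τ * σ * τ⁻¹) = sw 3 0 * sw 3 2) σ).resolve_right fun ⟨κ, e⟩ => h02 ?_
  have : θ (sw 3 0 * sw 3 2) = 1 := by rcases e with e | ⟨τ, e⟩ <;> simp [← e, k]
  rw [map_mul, h1 0 (by decide), h1 2 (by decide), ← h.sq 2 (by decide)] at this
  exact mul_right_cancel this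
theorem T3.cox3 (h : T3 D) {a b c : G} (ha : a ∈ D) (hb : b ∈ D) (hc : c ∈ D) (n1 : ¬ Commute a b) (n2 : ¬ Commute b c) (c1 : Commute a c) :
    CoxA (fun i => [a, b, c].getD i 1) 3 :=
  ⟨fun i hi => by interval_cases i <;> simp [h.sq _ ha, h.sq _ hb, h.sq _ hc],
    fun i hi => by obtain rfl | rfl : i = 0 ∨ i = 1 := by omega
                   exacts [h.braid ha hb n1, h.braid hb hc n2],
    fun i j h1 h2 => by obtain ⟨rfl, rfl⟩ : i = 0 ∧ j = 2 := by omega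
                        exact c1⟩
theorem T3.cox2 (h : T3 D) {a b : G} (ha : a ∈ D) (hb : b ∈ D) (n1 : ¬ Commute a b) :
    ∃ θ : Equiv.Perm (Fin 3) →* G, Function.Injective θ ∧ θ.range = closure {a, b} := by
  have c : CoxA (fun i => [a, b].getD i 1) 2 := ⟨fun i hi => by interval_cases i <;> simp [h.sq _ ha, h.sq _ hb],
    fun i hi => by obtain rfl : i = 0 := by omega
                   exact h.braid ha hb n1, fun i j h1 h2 => by omega⟩
  obtain ⟨θ, h1, h2⟩ := c.hom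
  refine ⟨θ, sw_inj θ (.inl rfl) (by rw [h1 0 (by decide), h1 1 (by decide)]; exact fun e : a = b => n1 (e ▸ .refl a)), h2.trans (le_antisymm
    (gen_lets_le fun i hi => subset_closure (by interval_cases i <;> simp)) ((closure_le _).2 ?_))⟩
  rintro _ (rfl | rfl)
  exacts [mem_lets (fun i => [_, b].getD i 1) (show 0 < 2 by decide), mem_lets (fun i => [a, _].getD i 1) (show 1 < 2 by decide)]
theorem TG.k4 (h : TG D) {a b c : G} (ha : a ∈ D) (hb : b ∈ H6.nb D a) (hc : c ∈ D) (n1 : ¬ Commute a c) (n2 : ¬ Commute b c)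
    {K : Subgroup G} (k1 : a ∈ K) (k2 : c ∈ K) (k3 : H6.nb D a ⊆ K) (W : ∀ x ∈ D, ∀ p ∈ H6.nb D x, ∀ q ∈ H6.nb D x, Commute p q → p = q) :
    D ⊆ K := fun x hx => by_contra fun n => by
  have H : ∀ k ∈ K, ¬ Commute (k * a * k⁻¹) x := fun k hk l => n (by
    have l : Commute a (k⁻¹ * x * k) := by simpa [mul_assoc] using l.conj k⁻¹
    have : k⁻¹ * x * k ∈ K := by
      by_cases e : k⁻¹ * x * k = a
      exacts [e ▸ k1, k3 ⟨h.cj' k hx, e, l⟩]
    simpa [mul_assoc] using mul_mem (mul_mem hk this) (inv_mem hk))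
  have kb := k3 hb
  obtain ⟨u, hu, e⟩ : ∃ u ∈ K, u * a * u⁻¹ = b := ⟨_, mul_mem k2 (mul_mem (mul_mem (mul_mem k1 kb) k2) (inv_mem (mul_mem k1 kb))),
    (h.s4 ha hb.1 hc hb.2.2 n1 n2).2⟩
  have F : ∀ k ∈ K, k * (a * b) * k⁻¹ * x * (k * (a * b) * k⁻¹)⁻¹ ∈ H6.nb D x := fun k hk => by
    have hb' := (h.nb_cj k).2 hb
    have l : ¬ Commute (k * b * k⁻¹) x := by simpa [← e, mul_assoc] using H _ (mul_mem hk hu)
    rw [show k * (a * b) * k⁻¹ = k * a * k⁻¹ * (k * b * k⁻¹) by group]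
    exact ⟨h.cj _ x hx, fun f => H k hk (h.fx2 (h.cj k a ha) hb'.1 hb'.2.1 hb'.2.2 hx (comm_of_conj_eq f)),
      (h.s4 (h.cj k a ha) hb'.1 hx hb'.2.2 (H k hk) l).1⟩
  have f3 := F (a * c) (mul_mem k1 k2)
  have id : a * b * (a * c * (a * b) * (a * c)⁻¹) = c * (a * b) * c⁻¹ := by
    have b1 : ∀ z, c * (a * (c * z)) = a * (c * (a * z)) := fun z => by simpa only [mul_assoc] using congrArg (· * z) (h.braid ha hc n1).symm
    have b2 : ∀ z, b * (c * (b * z)) = c * (b * (c * z)) := fun z => by simpa only [mul_assoc] using congrArg (· * z) (h.braid hb.1 hc n2)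
    have c1 : ∀ z, b * (a * z) = a * (b * z) := fun z => by simpa only [mul_assoc] using congrArg (· * z) hb.2.2.eq.symm
    simp only [mul_inv_rev, h.inv ha, h.inv hc, mul_assoc]
    calc a * (b * (a * (c * (a * (b * (c * a)))))) = b * (c * (b * (a * (c * (a * 1))))) := by rw [c1, h.ll ha, ← c1, mul_one]
      _ = c * (b * (a * (c * 1))) := by rw [b2, ← b1, h.ll hc]
      _ = _ := by rw [c1, mul_one]
  have := W x hx _ (F 1 (one_mem _)) _ (F c k2) (by simpa [← id, mul_assoc] using f3.2.2.conj (a * b))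
  rw [← id] at this
  exact f3.2.1 (conj_inj' (g := a * b) (by simpa [mul_assoc] using this.symm))
theorem TC.s4 (h : TC D) (n : NoCen D) {d : G} (hd : d ∈ D) (hV : ∀ e ∈ D, Commute d e → rV D d e) (hm : {y | y ∈ D ∧ Commute d y}.ncard = 2) :
    Nonempty (G ≃* Equiv.Perm (Fin 4)) := by
  obtain ⟨v, hv⟩ : ∃ v, H6.nb D d = {v} := by
    rw [← Set.ncard_eq_one]
    have := Set.ncard_sdiff_singleton_of_mem (s := {y | y ∈ D ∧ Commute d y}) (a := d) ⟨hd, .refl d⟩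
    rw [hm] at this
    exact (congrArg _ (Set.ext fun y => by simp [H6.nb, and_comm, and_assoc, and_left_comm])).trans this
  have m : v ∈ H6.nb D d := hv.ge rfl
  obtain ⟨c, hc, n1⟩ := n d hd
  have n2 : ¬ Commute v c := fun l => n1 (((hV v m.1 m.2.2).2.2 c hc).1 l)
  obtain ⟨θ, h1, -, h3⟩ := (h.cox3 hd hc m.1 n1 (fun e => n2 e.symm) m.2.2).inj3 m.2.1.symm
  have := h.k4 hd m hc n1 n2 (K := θ.range) (h3.ge (mem_lets _ (show 0 < 3 by decide))) (h3.ge (mem_lets _ (show 1 < 3 by decide)))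
    (hv ▸ Set.singleton_subset_iff.2 (h3.ge (mem_lets _ (show 2 < 3 by decide)))) fun x hx p hp q hq _ => by
      obtain ⟨g, rfl⟩ := h.one x hx d hd
      exact conj_inj' ((hv.le ((h.nb_cj g).2 hp)).trans (hv.le ((h.nb_cj g).2 hq)).symm)
  exact ⟨(MulEquiv.ofBijective θ ⟨h1, MonoidHom.range_eq_top.1 (eq_top_iff.2 (h.gen ▸ (closure_le _).2 this))⟩).symm⟩

set_option synthInstance.maxSize 1000 in
theorem T3.loc3 {E : Set G} (h : T3 E) (e : closure E ≃* Equiv.Perm (Fin 3)) : (∃ x ∈ E, ∃ y ∈ E, ¬ Commute x y) ∧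
    (∀ x ∈ E, ∀ y ∈ E, Commute x y → x = y) ∧ ∀ x ∈ E, ∀ y ∈ E, ¬ Commute x y → ∀ z ∈ E, z = x ∨ z = y ∨ z = x * y * x := by
  let f : ∀ x ∈ E, Equiv.Perm (Fin 3) := fun x hx => e ⟨x, subset_closure hx⟩
  have f1 : ∀ x hx, f x hx * f x hx = 1 ∧ f x hx ≠ 1 := fun x hx => ⟨by rw [← map_mul, ← map_one e]; exact congrArg e (Subtype.ext (h.sq x hx)),
    fun k => h.ne1 x hx (congrArg Subtype.val (e.map_eq_one_iff.1 k))⟩
  have f2 : ∀ {x y} hx hy, f x hx = f y hy → x = y := fun _ _ k => congrArg Subtype.val (e.injective k)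
  have w : ∀ x ∈ E, ∀ y ∈ E, Commute x y → x = y := fun x hx y hy c => f2 hx hy ((by decide : ∀ a b : Equiv.Perm (Fin 3), a * a = 1 ∧ a ≠ 1 →
    b * b = 1 ∧ b ≠ 1 → a * b = b * a → a = b) _ _ (f1 x hx) (f1 y hy) (by rw [← map_mul, ← map_mul]; exact congrArg e (Subtype.ext c)))
  refine ⟨?_, w, fun x hx y hy n z hz => ?_⟩
  · by_contra! k
    have : ∀ a b : closure E, a * b = b * a := fun a b => Subtype.ext (comm_of_closure (fun y hy => (comm_of_closure (k y hy) a.2).symm) b.2)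
    exact (by decide : ¬ ∀ a b : Equiv.Perm (Fin 3), a * b = b * a) fun a b => e.symm.injective (by simp [this (e.symm a)])
  · refine ((by decide : ∀ a b c : Equiv.Perm (Fin 3), a * a = 1 ∧ a ≠ 1 → b * b = 1 ∧ b ≠ 1 → c * c = 1 ∧ c ≠ 1 → a ≠ b →
      c = a ∨ c = b ∨ c = a * b * a) _ _ _ (f1 x hx) (f1 y hy) (f1 z hz) fun k => n (f2 hx hy k ▸ .refl x)).imp (f2 hz hx) (Or.imp (f2 hz hy) fun k => ?_)
    rw [← map_mul, ← map_mul] at k
    exact congrArg Subtype.val (e.injective k)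
theorem TG.s5 [Finite G] (h : TG D) {d : G} (hd : d ∈ D) (H : ∀ d ∈ D, Nonempty (closure (H6.nb D d) ≃* Equiv.Perm (Fin 3)))
    (h3 : Nat.card (pCore 3 (centralizer {d})) = 3) :
    Nonempty (closure D ≃* Equiv.Perm (Fin 5)) ∨ Nonempty (closure D ≃* Equiv.Perm (Fin 3) × Equiv.Perm (Fin 3)) := by
  have L := fun d hd => (h.nb d).loc3 (H d hd).some
  obtain ⟨x, hx, y, hy, n1⟩ := (L d hd).1
  have dx : d ∈ H6.nb D x := ⟨hd, hx.2.1.symm, hx.2.2.symm⟩
  obtain ⟨c, hc, n2⟩ : ∃ c ∈ H6.nb D x, ¬ Commute d c := by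
    by_contra! k
    obtain ⟨p, hp, q, hq, n⟩ := (L x hx.1).1
    exact n ((L x hx.1).2.1 d dx p hp (k p hp) ▸ k q hq)
  have S : ∀ {d x y}, d ∈ D → x ∈ H6.nb D d → y ∈ H6.nb D d → ¬ Commute x y → H6.nb D d = {x, y, x * y * x} := fun hd hx hy n =>
    Set.ext fun z => ⟨(L _ hd).2.2 _ hx _ hy n z, by rintro (rfl | rfl | rfl); exacts [hx, hy, (h.nb _).cl _ hx _ hy]⟩
  have fin : ∀ {X : Type} [Group X] (θ : X →* G), Function.Injective θ → θ.range ≤ closure D → D ⊆ θ.range → Nonempty (closure D ≃* X) :=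
    fun θ a b c => ⟨((θ.ofInjective a).trans (MulEquiv.subgroupCongr (b.antisymm ((closure_le _).2 c)))).symm⟩
  by_cases n3 : Commute c y
  swap
  · have cx : CoxA (fun i => [d, c, y, x].getD i 1) 4 := ⟨fun i hi => by interval_cases i <;> simp [h.sq _ hd, h.sq _ hc.1, h.sq _ hx.1, h.sq _ hy.1],
      fun i hi => by obtain rfl | rfl | rfl : i = 0 ∨ i = 1 ∨ i = 2 := by omega
                     exacts [h.braid hd hc.1 n2, h.braid hc.1 hy.1 n3, (h.braid hx.1 hy.1 n1).symm],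
      fun i j h1 h2 => by obtain ⟨rfl, rfl⟩ | ⟨rfl, rfl⟩ | ⟨rfl, rfl⟩ : i = 0 ∧ j = 2 ∨ i = 0 ∧ j = 3 ∨ i = 1 ∧ j = 3 := by omega
                          exacts [hy.2.2, hx.2.2, hc.2.2.symm]⟩
    obtain ⟨θ, h1, h2⟩ := cx.hom
    have m := fun i (hi : i < 4) => h2.ge (mem_lets _ hi)
    refine .inl (fin θ (sw_inj θ (.inr le_rfl) (by rw [h1 0 (by decide), h1 1 (by decide)]; exact fun e : d = c => n2 (e ▸ .refl d)))
      (h2.trans_le (gen_lets_le fun i hi => subset_closure (by interval_cases i <;> simp [hd, hc.1, hx.1, hy.1])))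
      (h.k4 hd hy hc.1 n2 (fun e => n3 e.symm) (m 0 (by decide)) (m 1 (by decide)) ?_ fun x hx => (L x hx).2.1))
    rw [S hd hx hy n1]
    rintro _ (rfl | rfl | rfl)
    exacts [m 3 (by decide), m 2 (by decide), mul_mem (mul_mem (m 3 (by decide)) (m 2 (by decide))) (m 3 (by decide))]
  obtain ⟨θ, a1, a2⟩ := h.cox2 hd hc.1 n2
  obtain ⟨φ, b1, b2⟩ := h.cox2 hx.1 hy.1 n1
  have cm : ∀ a b, Commute (θ a) (φ b) := fun a b => comm_of_closure (E := {x, y}) (by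
    rintro _ (rfl | rfl) <;> refine (comm_of_closure (E := {d, c}) ?_ (a2.le ⟨a, rfl⟩)).symm <;> rintro _ (rfl | rfl)
    exacts [hx.2.2.symm, hc.2.2, hy.2.2.symm, n3.symm]) (b2.le ⟨b, rfl⟩)
  have r := MonoidHom.noncommCoprod_range θ φ cm
  rw [a2, b2] at r
  refine .inr (fin (θ.noncommCoprod φ cm) ((MonoidHom.noncommCoprod_injective θ φ cm).2 ⟨a1, b1, disjoint_def.2 ?_⟩)
    (r.trans_le (sup_le (closure_mono (by simp [Set.insert_subset_iff, hd, hc.1])) (closure_mono (by simp [Set.insert_subset_iff, hx.1, hy.1])))) ?_)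
  · rintro _ ⟨a, rfl⟩ ⟨b, e⟩
    rw [(by decide : ∀ a : Equiv.Perm (Fin 3), (∀ b, b * a = a * b) → a = 1) a fun u => a1 (by rw [map_mul, map_mul, ← e]; exact cm u b), map_one]
  rw [r]
  refine fun e he => by_contra fun n => ?_
  have o : ∀ {d x y} {K : Subgroup G}, d ∈ D → x ∈ H6.nb D d → y ∈ H6.nb D d → ¬ Commute x y → e ∉ K → d ∈ K → x ∈ K → y ∈ K →
      ((d * e) ^ 3 = 1) := fun hd hx hy n k a b c => h.cube hd he fun l => by_contra fun f => k (by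
    rcases (S hd hx hy n).le ⟨he, Ne.symm f, l⟩ with rfl | rfl | rfl
    exacts [b, c, mul_mem (mul_mem b c) b])
  have m1 : ∀ z ∈ ({d, c} : Set G), z ∈ closure {d, c} ⊔ closure {x, y} := fun z hz => mem_sup_left (subset_closure hz)
  have m2 : ∀ z ∈ ({x, y} : Set G), z ∈ closure {d, c} ⊔ closure {x, y} := fun z hz => mem_sup_right (subset_closure hz)
  have o1 := o hd hx hy n1 n (m1 d (by simp)) (m2 x (by simp)) (m2 y (by simp))
  have o2 := o hx.1 dx hc n2 n (m2 x (by simp)) (m1 d (by simp)) (m1 c (by simp))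
  have t1 : x * y ∈ pCore 3 G := h.coreW ⟨hx.1, hy.1, (S hx.1 dx hc n2).trans
    (S hy.1 ⟨hd, hy.2.1.symm, hy.2.2.symm⟩ ⟨hc.1, fun f => n2 (f ▸ hy.2.2), n3.symm⟩ n2).symm⟩
  have t2 : d * c ∈ pCore 3 G := h.coreW ⟨hd, hc.1, (S hd hx hy n1).trans
    (S hc.1 ⟨hx.1, hc.2.1.symm, hc.2.2.symm⟩ ⟨hy.1, fun f => n2 (f ▸ hy.2.2), n3⟩ n1).symm⟩
  have n0 : x * y ≠ 1 := fun f => n1 (by rw [eq_inv_of_mul_eq_one_left f]; exact (Commute.refl y).inv_left)
  have iv : ∀ {u v w : G}, u ∈ D → v ∈ D → w ∈ D → Commute w u → Commute w v → ∀ t ∈ zpowers (u * v), w * u * t * (w * u)⁻¹ = t⁻¹ := by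
    rintro u v w hu hv hw c1 c2 _ ⟨k, rfl⟩
    rw [← conj_zpow, ← inv_zpow]
    congr 1
    rw [mul_inv_rev, mul_assoc w, h.ll hu, c2.eq, mul_assoc, ← mul_assoc w, h.inv hu, c1.eq, mul_inv_rev, h.inv hu, h.inv hv, mul_inv_cancel_right]
  have C : ∀ t ∈ pCore 3 G, Commute t d → t ∈ zpowers (x * y) := fun t ht l => by
    have := Fact.mk Nat.prime_three
    have k : (pCore 3 G).subgroupOf (centralizer {d}) ≤ pCore 3 _ := H1.le_pCore H1.isPGroup_pCore.comap_subtype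
    obtain ⟨j, f⟩ := mem_zpowers_of_prime_card h3 (g := ⟨⟨x * y, mem_centralizer_singleton_iff.2 (hx.2.2.mul_right hy.2.2).symm⟩, k t1⟩)
      (g' := ⟨⟨t, mem_centralizer_singleton_iff.2 l⟩, k ht⟩) fun f => n0 (congrArg (·.1.1) f)
    exact ⟨j, congrArg (·.1.1) f⟩
  have I : ∀ t ∈ pCore 3 G, d * x * t * (d * x)⁻¹ = t⁻¹ := fun t ht => by
    obtain ⟨u, hu, f⟩ : ∃ u ∈ zpowers (d * c), u * d * u⁻¹ = t * d * t⁻¹ := by
      have w := (h.rW_iff hd).2 ⟨h.cj t d hd, h.cmem hd ht⟩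
      have := w.2.2 ▸ hx
      rcases (S hx.1 dx hc n2).le ⟨w.2.1, this.2.1.symm, this.2.2.symm⟩ with f | f | f <;> rw [f]
      · exact ⟨1, one_mem _, by simp⟩
      · refine ⟨_, mem_zpowers _, ?_⟩
        calc _ = d * (c * d * c) * d := by simp only [mul_inv_rev, h.inv hd, h.inv hc.1, mul_assoc]
          _ = c := by rw [← h.braid hd hc.1 n2]; simp only [mul_assoc, h.ll hd, h.sq d hd, mul_one]
      · exact ⟨_, inv_mem (mem_zpowers _), by rw [h.braid hd hc.1 n2]; simp only [mul_inv_rev, h.inv hd, h.inv hc.1, mul_assoc, h.ll hd]⟩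
    have w := C (u⁻¹ * t) (mul_mem (inv_mem (zpowers_le.2 t2 hu)) ht) (comm_of_conj_eq (by rw [mul_inv_rev, mul_assoc u⁻¹, mul_assoc u⁻¹, ← mul_assoc (t * d), ← f]; group))
    have f1 := iv hx.1 hy.1 hd hx.2.2 hy.2.2 _ w
    have f2 := iv hd hc.1 hx.1 hx.2.2.symm hc.2.2 _ hu
    have c : Commute u (u⁻¹ * t) := by
      obtain ⟨i, rfl⟩ := hu
      obtain ⟨j, f⟩ := w
      rw [← f]
      exact ((hx.2.2.mul_right hy.2.2).mul_left (hc.2.2.symm.mul_right n3)).zpow_zpow i j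
    rw [← hx.2.2.eq] at f2
    calc _ = d * x * u * (d * x)⁻¹ * (d * x * (u⁻¹ * t) * (d * x)⁻¹) := by group
      _ = (u⁻¹ * t * u)⁻¹ := by rw [f1, f2, ← mul_inv_rev]
      _ = _ := by rw [← c.eq, mul_inv_cancel_left]
  have J : ∀ t ∈ pCore 3 G, x * e * t * (x * e)⁻¹ = d * e * t⁻¹ * (d * e)⁻¹ := fun t ht => by
    have := I _ (Normal.conj_mem inferInstance _ ht e)
    calc _ = d⁻¹ * (d * x * (e * t * e⁻¹) * (d * x)⁻¹) * d := by group
      _ = _ := by rw [this]; simp only [mul_inv_rev, inv_inv, h.inv hd, mul_assoc]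
  have N : ∀ g, ∀ t ∈ pCore 3 G, g * t * g⁻¹ ∈ pCore 3 G := fun g t ht => Normal.conj_mem inferInstance _ ht g
  have : x * y = (x * y)⁻¹ := by
    generalize x * y = t at t1
    calc t = (x * e) ^ 3 * t * ((x * e) ^ 3)⁻¹ := by simp [o2]
      _ = x * e * (x * e * (x * e * t * (x * e)⁻¹) * (x * e)⁻¹) * (x * e)⁻¹ := by simp only [pow_succ, pow_zero, one_mul, mul_inv_rev, mul_assoc]
      _ = (d * e) ^ 3 * t⁻¹ * ((d * e) ^ 3)⁻¹ := by
        rw [J t t1, J _ (N _ _ (inv_mem t1)), J _ (N _ _ (inv_mem (N _ _ (inv_mem t1))))]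
        simp only [pow_succ, pow_zero, one_mul, mul_inv_rev, mul_assoc, inv_inv]
      _ = _ := by simp [o1]
  exact n0 (pq1 H1.isPGroup_pCore (n := 2) (by decide) t1 (by rw [pow_two]; nth_rewrite 1 [this]; exact inv_mul_cancel _))
end H6
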