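import Cfsg.Agent.H6.G3d
/-! Fischer spaces. -/
set_option autoImplicit false
set_option linter.unusedSectionVars false
namespace H6
open Cfsg Subgroup H0 LineSystem

/-- combinatorial description of a plane -/
structure Pl {X : Type*} (M : Set (Set X)) (nc : X → X → Prop) [DecidableRel nc] (op : X → X → X) : Prop where
  ln : ∀ m, m ∈ M ↔ ∃ x y, nc x y ∧ m = {x, y, op x y}
  ne : ∀ x y, nc x y → x ≠ y ∧ op x y ≠ x ∧ op x y ≠ y
  col : ∀ u v, nc u v → nc v u ∧ nc u (op u v) ∧ nc v (op u v)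
  aut : ∀ x u v, nc u v → nc (if nc x u then op x u else u) (if nc x v then op x v else v) ∧
    (if nc x (op u v) then op x (op u v) else op u v) = op (if nc x u then op x u else u) (if nc x v then op x v else v)

def ncD (x y : DualAffinePoint) : Prop := (x.1 ∩ y.1).card = 1
instance : DecidableRel ncD := fun _ _ => by unfold ncD; infer_instance
def opD (x y : DualAffinePoint) : DualAffinePoint := if h : (x.1 \ y.1 ∪ y.1 \ x.1).card = 2 then ⟨_, h⟩ else x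
theorem plD : Pl dualAffinePlaneTwo ncD opD := by
  refine ⟨fun m => ⟨?_, ?_⟩, by decide +kernel, by decide +kernel, by decide +kernel⟩
  · rintro ⟨i, rfl⟩
    obtain ⟨x, y, h, e⟩ := (by decide +kernel : ∀ i : Fin 4, ∃ x y, ncD x y ∧ ∀ s : DualAffinePoint, i ∉ s.1 ↔ s = x ∨ s = y ∨ s = opD x y) i
    exact ⟨x, y, h, Set.ext e⟩
  · rintro ⟨x, y, h, rfl⟩
    obtain ⟨i, e⟩ := (by decide +kernel : ∀ x y, ncD x y → ∃ i : Fin 4, ∀ s : DualAffinePoint, s = x ∨ s = y ∨ s = opD x y ↔ i ∉ s.1) x y h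
    exact ⟨i, Set.ext e⟩
theorem plA : Pl affinePlaneThree (· ≠ ·) fun x y => -x - y := by
  refine ⟨fun m => ⟨?_, ?_⟩, by decide +kernel, by decide +kernel, by decide +kernel⟩
  · rintro ⟨v, w, h, rfl⟩
    exact ⟨v, v + w, by simpa using h, Set.ext ((by decide +kernel : ∀ v w s : Fin 2 → ZMod 3,
      (∃ c : ZMod 3, s = v + c • w) ↔ s = v ∨ s = v + w ∨ s = -v - (v + w)) v w)⟩
  · rintro ⟨x, y, h, rfl⟩
    exact ⟨x, y - x, sub_ne_zero.2 h.symm, Set.ext ((by decide +kernel : ∀ x y s : Fin 2 → ZMod 3,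
      s = x ∨ s = y ∨ s = -x - y ↔ ∃ c : ZMod 3, s = x + c • (y - x)) x y)⟩

section
variable {X Y : Type*} {L : Set (Set X)} {M : Set (Set Y)}
def RL (L : Set (Set X)) (x y z : X) : Prop := (z ≠ x ∧ z ≠ y ∧ x ≠ y ∧ ({x, y, z} : Set X) ∈ L) ∨ (z = y ∧ ¬ LineSystem.Collinear L x y)
def AutL (L : Set (Set X)) (x : X) (l : Set X) : Prop := ∃ l' ∈ L, ∀ y ∈ l, ∃ z ∈ l', RL L x y z
theorem Pl.autL {nc : X → X → Prop} [DecidableRel nc] {op : X → X → X} (h : Pl L nc op) (x : X) {l : Set X} (hl : l ∈ L) : AutL L x l := by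
  have R : ∀ y, RL L x y (if nc x y then op x y else y) := fun y => by
    split_ifs with k
    · exact .inl ⟨(h.ne x y k).2.1, (h.ne x y k).2.2, (h.ne x y k).1, (h.ln _).2 ⟨x, y, k, rfl⟩⟩
    · refine .inr ⟨rfl, fun ⟨n, m, hm, a, b⟩ => k ?_⟩
      obtain ⟨u, v, c, rfl⟩ := (h.ln m).1 hm
      obtain ⟨c1, c2, c3⟩ := h.col u v c
      rcases a with rfl | rfl | rfl <;> rcases b with rfl | rfl | rfl <;>
        first | exact (n rfl).elim | assumption | exact (h.col _ _ ‹_›).1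
  obtain ⟨u, v, c, rfl⟩ := (h.ln l).1 hl
  refine ⟨_, (h.ln _).2 ⟨_, _, (h.aut x u v c).1, rfl⟩, fun y hy => ⟨_, ?_, R y⟩⟩
  rcases hy with rfl | rfl | rfl
  exacts [.inl rfl, .inr (.inl rfl), .inr (.inr (h.aut x u v c).2)]
theorem RL.iso {e : X ≃ Y} (h : IsIso L M e) {x y z : X} (k : RL M (e x) (e y) (e z)) : RL L x y z :=
  k.imp (fun ⟨a, b, c, d⟩ => ⟨fun f => a (f ▸ rfl), fun f => b (f ▸ rfl), fun f => c (f ▸ rfl), (h _).2 (by simpa [Set.image_insert_eq] using d)⟩)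
    fun ⟨a, b⟩ => ⟨e.injective a, fun ⟨n, l, hl, p, q⟩ => b ⟨e.injective.ne n, _, (h l).1 hl, ⟨x, p, rfl⟩, ⟨y, q, rfl⟩⟩⟩
theorem AutL.iso {e : X ≃ Y} (h : IsIso L M e) {x : X} {l : Set X} (k : AutL M (e x) (e '' l)) : AutL L x l := by
  obtain ⟨m, hm, k⟩ := k
  refine ⟨e.symm '' m, (h _).2 (by simpa [Set.image_image] using hm), fun y hy => ?_⟩
  obtain ⟨z, hz, r⟩ := k _ ⟨y, hy, rfl⟩
  exact ⟨_, ⟨z, hz, rfl⟩, RL.iso h (by simpa using r)⟩
theorem sub_span (L : Set (Set X)) (A : Set X) : A ⊆ span L A ∧ IsSubspace L (span L A) :=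
  ⟨fun _ hx _ hT => hT.1 hx, fun l hl x hx y hy n a b _ hz T hT => hT.2 l hl x (hx T hT) y (hy T hT) n a b hz⟩
theorem AutL.res {S : Set X} (hS : IsSubspace L S) {x : S} {l : Set X} (hl : l ⊆ S) (k : AutL (restrict L S) x {y | y.1 ∈ l}) : AutL L x.1 l := by
  obtain ⟨_, ⟨m, hm, -, rfl⟩, k⟩ := k
  refine ⟨m, hm, fun y hy => ?_⟩
  obtain ⟨z, hz, r⟩ := k ⟨y, hl hy⟩ hy
  refine ⟨z, hz, r.imp (fun ⟨a, b, c, n, hn, s, e⟩ => ⟨fun f => a (Subtype.ext f), fun f => b (Subtype.ext f), fun f => c (Subtype.ext f), ?_⟩)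
    fun ⟨a, b⟩ => ⟨congrArg Subtype.val a, fun ⟨n, l, hl', p, q⟩ => b ⟨fun f => n (congrArg Subtype.val f), _,
      ⟨l, hl', hS l hl' _ x.2 y (hl hy) n p q, rfl⟩, p, q⟩⟩⟩
  convert hn using 1
  refine Set.ext fun w => ⟨?_, fun hw => ?_⟩
  · rintro (rfl | rfl | rfl)
    exacts [e.le (.inl rfl), (Set.ext_iff.1 e ⟨_, hl hy⟩).1 (.inr (.inl rfl)), e.le (.inr (.inr rfl))]
  · exact (e.ge (show (⟨w, s hw⟩ : S) ∈ {x : S | x.1 ∈ n} from hw)).imp (congrArg Subtype.val)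
      (Or.imp (congrArg Subtype.val) (congrArg Subtype.val))
variable (h : IsFischerSpace L)
include h
theorem fs3 {l : Set X} (hl : l ∈ L) {x y : X} (hx : x ∈ l) (hy : y ∈ l) (n : x ≠ y) : ∃ z, z ≠ x ∧ z ≠ y ∧ l = {x, y, z} := by
  obtain ⟨a, b, c, h1, h2, h3, rfl⟩ := Set.ncard_eq_three.1 (h.2.1 l hl)
  rcases hx with rfl | rfl | rfl <;> rcases hy with rfl | rfl | rfl <;> first | exact (n rfl).elim | skip
  exacts [⟨c, h2.symm, h3.symm, rfl⟩, ⟨b, h1.symm, h3, by grind⟩, ⟨c, h3.symm, h2.symm, by grind⟩, ⟨a, h1, h2, by grind⟩,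
    ⟨b, h3, h1.symm, by grind⟩, ⟨a, h2, h1, by grind⟩]
theorem RL.uniq {x y z w : X} (a : RL L x y z) (b : RL L x y w) : z = w := by
  rcases a with a | a <;> rcases b with b | b
  · rcases (h.1 _ a.2.2.2 _ b.2.2.2 x y a.2.2.1 (by simp) (by simp) (by simp) (by simp)).le (show z ∈ _ by simp) with f | f | f
    exacts [(a.1 f).elim, (a.2.1 f).elim, f]
  · exact (b.2 ⟨a.2.2.1, _, a.2.2.2, by simp, by simp⟩).elim
  · exact (a.2 ⟨b.2.2.1, _, b.2.2.2, by simp, by simp⟩).elim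
  · rw [a.1, b.1]
theorem rl_map (x y : X) : RL L x y (lineMap L x y) := by
  unfold lineMap
  split_ifs with k
  · exact .inl k.choose_spec
  · refine .inr ⟨rfl, fun ⟨n, l, hl, a, b⟩ => k ?_⟩
    obtain ⟨z, c, d, rfl⟩ := fs3 h hl a b n
    exact ⟨z, c, d, n, hl⟩
theorem lm_inv (x : X) : Function.Involutive (lineMap L x) := fun y => by
  refine (rl_map h x _).uniq h ?_
  rcases rl_map h x y with k | k
  · exact .inl ⟨k.2.2.1.symm, k.2.1.symm, k.1.symm, by rw [Set.pair_comm]; exact k.2.2.2⟩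
  · rw [k.1]; exact .inr ⟨rfl, k.2⟩
theorem fs_aut (x : X) {l : Set X} (hl : l ∈ L) : AutL L x l := by
  by_cases hx : x ∈ l
  · refine ⟨l, hl, fun y hy => ?_⟩
    by_cases e : x = y
    · exact ⟨y, hy, .inr ⟨rfl, fun k => k.1 e⟩⟩
    obtain ⟨z, c, d, rfl⟩ := fs3 h hl hx hy e
    exact ⟨z, by simp, .inl ⟨c, d, e, hl⟩⟩
  by_cases k : ∃ y ∈ l, LineSystem.Collinear L x y
  swap
  · exact ⟨l, hl, fun y hy => ⟨y, hy, .inr ⟨rfl, fun c => k ⟨y, hy, c⟩⟩⟩⟩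
  obtain ⟨y, hy, -, m, hm, a, b⟩ := k
  obtain ⟨s1, s2⟩ := sub_span L (l ∪ m)
  have l1 : l ⊆ span L (l ∪ m) := Set.subset_union_left.trans s1
  refine AutL.res s2 (x := ⟨x, s1 (.inr a)⟩) l1 ?_
  rcases h.2.2 l hl m hm (fun e => hx (e ▸ a)) ⟨y, hy, b⟩ with ⟨e, i⟩ | ⟨e, i⟩
  exacts [.iso i (plD.autL _ ((i _).1 ⟨l, hl, l1, rfl⟩)), .iso i (plA.autL _ ((i _).1 ⟨l, hl, l1, rfl⟩))]
theorem lm_iso (x : X) : IsIso L L (lm_inv h x).toPerm := by
  have : ∀ l ∈ L, lineMap L x '' l ∈ L := fun l hl => by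
    obtain ⟨m, hm, k⟩ := fs_aut h x hl
    convert hm using 1
    refine Set.eq_of_subset_of_ncard_le ?_ ?_ (Set.finite_of_ncard_ne_zero (by rw [h.2.1 m hm]; decide))
    · rintro _ ⟨y, hy, rfl⟩
      obtain ⟨z, hz, r⟩ := k y hy
      rwa [(rl_map h x y).uniq h r]
    · rw [Set.ncard_image_of_injective _ (lm_inv h x).injective, h.2.1 l hl, h.2.1 m hm]
  exact fun l => ⟨this l, fun k => by simpa [Set.image_image, lm_inv h x _] using this _ k⟩
theorem lm_cj (x y : X) : (lm_inv h x).toPerm * (lm_inv h y).toPerm * (lm_inv h x).toPerm = (lm_inv h (lineMap L x y)).toPerm :=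
  Equiv.ext fun w => ((rl_map h _ w).uniq h (RL.iso (lm_iso h x) (by simpa [lm_inv h x _] using rl_map h y (lineMap L x w)))).symm
theorem fs_main (hnd : IsNondegenerate L) : (∀ x : X, ∃ σ : Equiv.Perm X, ⇑σ = lineMap L x ∧ orderOf σ = 2 ∧ IsIso L L σ) ∧
    IsThreeTranspositionSet {σ : Equiv.Perm X | ∃ x : X, ⇑σ = lineMap L x} := by
  have sq : ∀ x, (lm_inv h x).toPerm * (lm_inv h x).toPerm = 1 := fun x => Equiv.ext (lm_inv h x)
  have o : ∀ x, orderOf (lm_inv h x).toPerm = 2 := fun x => orderOf_eq_prime (by rw [pow_two, sq]) fun e => by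
    obtain ⟨l, hl, hx⟩ := hnd x
    obtain ⟨y, hy, n⟩ := Set.exists_ne_of_one_lt_ncard (s := l) (by rw [h.2.1 l hl]; decide) x
    obtain ⟨z, c, d, rfl⟩ := fs3 h hl hx hy n.symm
    exact d ((RL.uniq h (.inl ⟨c, d, n.symm, hl⟩) (rl_map h x y)).trans (Equiv.congr_fun e y))
  have E : ∀ σ : Equiv.Perm X, ∀ x, ⇑σ = lineMap L x → σ = (lm_inv h x).toPerm := fun σ x e => Equiv.ext (congrFun e)
  refine ⟨fun x => ⟨_, rfl, o x, lm_iso h x⟩, fun σ ⟨x, e⟩ => E σ x e ▸ o x, fun σ ⟨x, e⟩ τ ⟨y, f⟩ => ?_⟩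
  rw [E σ x e, E τ y f]
  rcases rl_map h x y with k | k
  · refine .inr (cube_of_braid (sq x) (sq y) ?_)
    rw [lm_cj h, lm_cj h]
    congr 2
    exact RL.uniq h (.inl ⟨k.2.1, k.1, k.2.2.1.symm, by rw [Set.insert_comm]; exact k.2.2.2⟩) (rl_map h y x)
  · have := lm_cj h x y
    rw [show (lm_inv h (lineMap L x y)).toPerm = (lm_inv h y).toPerm by congr 2; exact k.1] at this
    exact .inl (by rw [pow_two, ← mul_assoc, this, sq])
end
variable {G : Type*} [Group G] {D : Set G}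
def ln3 (D : Set G) (a b c : G) : Set D := {z | z.1 = a ∨ z.1 = b ∨ z.1 = c}
def tri (D : Set G) (a b c : G) : Prop := a ∈ D ∧ b ∈ D ∧ ¬ Commute a b ∧ c = b * a * b⁻¹
theorem T3.tri1 (h : T3 D) {a b c : G} (k : tri D a b c) : tri D b a c :=
  ⟨k.2.1, k.1, fun e => k.2.2.1 e.symm, by rw [k.2.2.2, h.inv k.1, h.inv k.2.1, h.braid k.1 k.2.1 k.2.2.1]⟩
theorem T3.tri2 (h : T3 D) {a b c : G} (k : tri D a b c) : tri D a c b := by
  obtain ⟨ha, hb, n, rfl⟩ := k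
  rw [h.inv hb, ← h.braid ha hb n]
  exact ⟨ha, h.cl a ha b hb, fun e => n (by simpa [mul_assoc, h.ll ha, h.sq a ha] using e.conj a), (h.nc_conj ha hb n).symm⟩
theorem T3.ln_eq (h : T3 D) {l : Set D} (hl : l ∈ threeTranspositionLines D) {p q : D} (hp : p ∈ l) (hq : q ∈ l) (n : p ≠ q) :
    ¬ Commute p.1 q.1 ∧ l = ln3 D p q (q * p * q.1⁻¹) := by
  obtain ⟨x, y, c, rfl⟩ := hl
  have t : tri D x y _ := ⟨x.2, y.2, c, rfl⟩
  generalize y.1 * x.1 * y.1⁻¹ = w at *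
  have K : ∀ {r}, tri D p q r → (∀ z, z = x.1 ∨ z = y.1 ∨ z = w ↔ z = p.1 ∨ z = q.1 ∨ z = r) → ¬ Commute p.1 q.1 ∧
    {z : D | z.1 = x ∨ z.1 = y ∨ z.1 = w} = ln3 D p q (q * p * q.1⁻¹) := fun k e => ⟨k.2.2.1, Set.ext fun z => k.2.2.2 ▸ e z⟩
  have n : p.1 ≠ q.1 := fun e => n (Subtype.ext e)
  rcases hp with a | a | a <;> rcases hq with b | b | b <;> first | exact (n (a.trans b.symm)).elim | skip
  · exact K (a ▸ b ▸ t) (by simp [a, b])
  · exact K (a ▸ b ▸ h.tri2 t) (by grind)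
  · exact K (a ▸ b ▸ h.tri1 t) (by grind)
  · exact K (a ▸ b ▸ h.tri2 (h.tri1 t)) (by grind)
  · exact K (a ▸ b ▸ h.tri1 (h.tri2 t)) (by grind)
  · exact K (a ▸ b ▸ h.tri1 (h.tri2 (h.tri1 t))) (by grind)
theorem T3.plane (h : T3 D) {X : Type*} {M : Set (Set X)} {nc : X → X → Prop} [DecidableRel nc] {op : X → X → X} (P : Pl M nc op)
    (p : X → G) (pD : ∀ x, p x ∈ D) (inj : Function.Injective p) (pn : ∀ x y, nc x y ↔ ¬ Commute (p x) (p y))
    (po : ∀ x y, nc x y → p (op x y) = p y * p x * (p y)⁻¹) {a b c : X} (n1 : nc a b) (n2 : nc a c)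
    (gen : ∀ x, x ∈ [a, b, op a b, c, op a c] ∨ ∃ u ∈ [a, b, op a b, c, op a c], ∃ v ∈ [a, b, op a b, c, op a c], nc u v ∧ x = op u v) :
    Isomorphic (restrict (threeTranspositionLines D) (span (threeTranspositionLines D)
      (ln3 D (p a) (p b) (p b * p a * (p b)⁻¹) ∪ ln3 D (p a) (p c) (p c * p a * (p c)⁻¹)))) M := by
  let q : X → D := fun x => ⟨p x, pD x⟩
  have qi : Function.Injective q := fun x y e => inj (congrArg Subtype.val e)
  have Q : ∀ {x y}, nc x y → ln3 D (p x) (p y) (p y * p x * (p y)⁻¹) = q '' {x, y, op x y} := fun k => by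
    rw [← po _ _ k]; ext z; simp [ln3, q, Set.image_insert_eq, Subtype.ext_iff]
  have QL : ∀ {x y}, nc x y → q '' {x, y, op x y} ∈ threeTranspositionLines D := fun k => ⟨q _, q _, (pn _ _).1 k, (Q k).symm⟩
  have LQ : ∀ l ∈ threeTranspositionLines D, ∀ x y, q x ∈ l → q y ∈ l → q x ≠ q y → nc x y ∧ l = q '' {x, y, op x y} := fun l hl x y a b n =>
    let ⟨k, e⟩ := h.ln_eq hl a b n; ⟨(pn x y).2 k, e.trans (Q ((pn x y).2 k))⟩
  rw [Q n1, Q n2]
  have : span (threeTranspositionLines D) (q '' {a, b, op a b} ∪ q '' {a, c, op a c}) = Set.range q := by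
    refine Set.Subset.antisymm (Set.sInter_subset_of_mem ⟨by simp, ?_⟩) ?_
    · rintro l hl _ ⟨x, rfl⟩ _ ⟨y, rfl⟩ n u v
      rw [(LQ l hl x y u v n).2]; simp
    obtain ⟨s1, s2⟩ := sub_span (threeTranspositionLines D) (q '' {a, b, op a b} ∪ q '' {a, c, op a c})
    have B : ∀ x ∈ [a, b, op a b, c, op a c], q x ∈ _ := fun x hx => s1 (by
      rw [← Set.image_union]; exact ⟨x, by simp at hx ⊢; tauto, rfl⟩)
    rintro _ ⟨x, rfl⟩
    obtain k | ⟨u, hu, v, hv, n, rfl⟩ := gen x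
    · exact B x k
    · exact s2 _ (QL n) _ (B u hu) _ (B v hv) (qi.ne (P.ne u v n).1) ⟨u, by simp, rfl⟩ ⟨v, by simp, rfl⟩ ⟨_, by simp, rfl⟩
  rw [this]
  refine ⟨(Equiv.ofInjective q qi).symm, fun n => ?_⟩
  rw [P.ln, Equiv.image_eq_preimage_symm, Equiv.symm_symm]
  constructor
  · rintro ⟨l, hl, s, rfl⟩
    obtain ⟨u, v, c, e⟩ := id hl
    obtain ⟨x, rfl⟩ := s (e.ge (.inl rfl))
    obtain ⟨y, rfl⟩ := s (e.ge (.inr (.inl rfl)))
    obtain ⟨k, f⟩ := LQ l hl x y (e.ge (.inl rfl)) (e.ge (.inr (.inl rfl))) fun f => c (f ▸ .refl _)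
    exact ⟨x, y, k, by rw [f]; exact Set.preimage_image_eq _ qi⟩
  · rintro ⟨x, y, k, e⟩
    refine ⟨_, QL k, by simp, Set.ext ?_⟩
    rintro ⟨_, z, rfl⟩
    exact (Set.ext_iff.1 e z).trans (qi.mem_set_image).symm
def fD (s : DualAffinePoint) : Equiv.Perm (Fin 4) :=
  if 0 ∈ s.1 then (if 1 ∈ s.1 then .swap 0 1 else if 2 ∈ s.1 then .swap 0 2 else .swap 0 3)
  else if 1 ∈ s.1 then (if 2 ∈ s.1 then .swap 1 2 else .swap 1 3) else .swap 2 3
theorem TG.planeD (h : TG D) {a b c : G} (ha : a ∈ D) (hb : b ∈ D) (hc : c ∈ D) (n1 : ¬ Commute a b) (n2 : ¬ Commute a c) (c1 : Commute b c)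
    (n : b ≠ c) : Isomorphic (restrict (threeTranspositionLines D) (span (threeTranspositionLines D)
      (ln3 D a b (b * a * b⁻¹) ∪ ln3 D a c (c * a * c⁻¹)))) dualAffinePlaneTwo := by
  obtain ⟨θ, h1, h2, -⟩ := (h.cox3 hb ha hc (fun e => n1 e.symm) n2 c1).inj3 n
  have e0 : θ (fD ⟨{0, 1}, rfl⟩) = b := h2 0 (by decide)
  have e1 : θ (fD ⟨{1, 2}, rfl⟩) = a := h2 1 (by decide)
  have e2 : θ (fD ⟨{2, 3}, rfl⟩) = c := h2 2 (by decide)
  rw [← e0, ← e1, ← e2]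
  refine h.plane plD (fun s => θ (fD s)) (fun s => ?_) (h1.comp (by decide +kernel)) (fun x y => ?_) (fun x y k => ?_)
    (by decide +kernel) (by decide +kernel) (by decide +kernel)
  · obtain ⟨τ, e⟩ := (by decide +kernel : ∀ s, ∃ τ, fD s = τ * fD ⟨{0, 1}, rfl⟩ * τ⁻¹) s
    rw [e, map_mul, map_mul, map_inv, e0]; exact h.cj _ b hb
  · rw [(by decide +kernel : ∀ x y, ncD x y ↔ fD x * fD y ≠ fD y * fD x), ← h1.ne_iff, map_mul, map_mul]; rfl
  · rw [(by decide +kernel : ∀ x y, ncD x y → fD (opD x y) = fD y * fD x * (fD y)⁻¹) x y k, map_mul, map_mul, map_inv]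
theorem heis {s t a : G} (s3 : s ^ 3 = 1) (t3 : t ^ 3 = 1) (u3 : (s * t⁻¹) ^ 3 = 1) (v3 : (s⁻¹ * t⁻¹) ^ 3 = 1) (a2 : a * a = 1)
    (as : a * s = s⁻¹ * a) (at' : a * t = t⁻¹ * a) : ∃ p : (Fin 2 → ZMod 3) → G, p 0 = a ∧ p ![1, 0] = s * a ∧ p ![0, 1] = t * a ∧
      (∀ x, ∃ g, p x = g * a * g⁻¹) ∧ ∀ x y, p (-x - y) = p y * p x * p y := by
  have s2 : s⁻¹ = s ^ 2 := inv_eq_of_mul_eq_one_right (by rw [← s3, pow_succ' s 2])
  have t2 : t⁻¹ = t ^ 2 := inv_eq_of_mul_eq_one_right (by rw [← t3, pow_succ' t 2])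
  have r1 : s * t⁻¹ * s = t * s⁻¹ * t := by
    calc _ = (s * t⁻¹) ^ 3 * (t * s⁻¹ * t) := by simp only [pow_succ, pow_zero]; group
      _ = _ := by rw [u3, one_mul]
  have r2 : t * s * t = s⁻¹ * t⁻¹ * s⁻¹ := by
    calc _ = (s⁻¹ * t⁻¹) ^ 3 * (t * s * t) := by rw [v3, one_mul]
      _ = _ := by simp only [pow_succ, pow_zero]; group
  have r3 : s * t * s = t⁻¹ * s⁻¹ * t⁻¹ := by
    calc _ = t⁻¹ * (t * s * t) * s := by group
      _ = _ := by rw [r2]; group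
  have ss : s * s = s⁻¹ := by rw [s2, pow_two]
  have tt : t * t = t⁻¹ := by rw [t2, pow_two]
  have ss' : s⁻¹ * s⁻¹ = s := by rw [← mul_inv_rev, ss, inv_inv]
  have tt' : t⁻¹ * t⁻¹ = t := by rw [← mul_inv_rev, tt, inv_inv]
  have k1 : Commute s (t⁻¹ * s * t) := by
    calc s * (t⁻¹ * s * t) = (s * t⁻¹ * s) * t := by group
      _ = t * s⁻¹ * (t * t) := by rw [r1]; group
      _ = (t⁻¹ * t⁻¹) * s⁻¹ * t⁻¹ := by rw [tt, tt']
      _ = t⁻¹ * (s * t * s) := by rw [r3]; group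
      _ = _ := by group
  have k2 : Commute t (s⁻¹ * t * s) := by
    calc t * (s⁻¹ * t * s) = (t * s⁻¹ * t) * s := by group
      _ = s * t⁻¹ * (s * s) := by rw [← r1]; group
      _ = (s⁻¹ * s⁻¹) * t⁻¹ * s⁻¹ := by rw [ss, ss']
      _ = s⁻¹ * (t * s * t) := by rw [r2]; group
      _ = _ := by group
  obtain ⟨z, zz⟩ : ∃ z, z = t⁻¹ * (s⁻¹ * t * s) := ⟨_, rfl⟩
  have hz : t * s = s * t * z := by rw [zz]; group
  have c1 : Commute s z := by
    rw [show z = (t⁻¹ * s * t)⁻¹ * s by rw [zz]; group]; exact k1.inv_right.mul_right (.refl s)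
  have c2 : Commute t z := zz ▸ (Commute.refl t).inv_right.mul_right k2
  have z3 : z ^ 3 = 1 := by
    rw [zz, k2.inv_left.mul_pow, inv_pow, t3, show s⁻¹ * t * s = s⁻¹ * t * s⁻¹⁻¹ by simp, conj_pow, t3]; simp
  have az : a * z = z * a := by
    have as' : a * s⁻¹ = s * a := by simpa using (SemiconjBy.inv_right as).eq
    have at'' : a * t⁻¹ = t * a := by simpa using (SemiconjBy.inv_right at').eq
    calc a * z = t * s * t⁻¹ * s⁻¹ * a := by
          rw [zz, ← mul_assoc, at'', mul_assoc, ← mul_assoc a, ← mul_assoc a, as', mul_assoc s, at', mul_assoc, mul_assoc, as]; group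
      _ = _ := by rw [hz, mul_assoc s, c2.eq, ← mul_assoc, c1.eq]; group
  have m1 : ∀ i : ℕ, t * s ^ i = s ^ i * t * z ^ i := fun i => by
    induction i with
    | zero => simp
    | succ i ih => rw [pow_succ, ← mul_assoc, ih, mul_assoc, ← (c1.pow_right i).eq, mul_assoc, ← mul_assoc t, hz, pow_succ' z]; simp only [mul_assoc]
  have m2 : ∀ i j : ℕ, t ^ j * s ^ i = s ^ i * t ^ j * z ^ (j * i) := fun i j => by
    induction j with
    | zero => simp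
    | succ j ih => rw [pow_succ, mul_assoc, m1, ← mul_assoc, ← mul_assoc, ih, mul_assoc _ _ t, ← (c2.pow_right _).eq, Nat.succ_mul, pow_add]; simp only [mul_assoc]
  let N : ℕ → ℕ → ℕ → G := fun i j k => s ^ i * t ^ j * z ^ k
  have mul : ∀ i j k l m n w, N i j k * (N l m n * w) = N (i + l) (j + m) (j * l + k + n) * w := fun i j k l m n w => by
    have c : ∀ w, z ^ k * (s ^ l * (t ^ m * w)) = s ^ l * (t ^ m * (z ^ k * w)) := fun w => by
      rw [← mul_assoc, ← (c1.pow_pow l k).eq, mul_assoc, ← mul_assoc (z ^ k), ← (c2.pow_pow m k).eq, mul_assoc]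
    simp only [N, mul_assoc, c, pow_add]
    rw [← mul_assoc (t ^ j), m2, mul_assoc, mul_assoc, ← mul_assoc (z ^ _), ← (c2.pow_pow m _).eq, mul_assoc]
  have am : ∀ i j k w, a * (N i j k * w) = N (2 * i) (2 * j) k * (a * w) := fun i j k w => by
    have := ((SemiconjBy.pow_right (s2 ▸ as) i).mul_right (SemiconjBy.pow_right (t2 ▸ at') j)).mul_right (SemiconjBy.pow_right az k)
    rw [← mul_assoc, ← mul_assoc (N _ _ _), this.eq, ← pow_mul, ← pow_mul]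
  have md : ∀ {i j k l m n}, i % 3 = l % 3 ∧ j % 3 = m % 3 ∧ k % 3 = n % 3 → N i j k = N l m n := fun {i j k l m n} e => by
    simp only [N]
    rw [pow_eq_pow_mod i s3, pow_eq_pow_mod j t3, pow_eq_pow_mod k z3, e.1, e.2.1, e.2.2, ← pow_eq_pow_mod l s3, ← pow_eq_pow_mod m t3,
      ← pow_eq_pow_mod n z3]
  refine ⟨fun x => N (x 0).val (x 1).val (2 * (x 0).val * (x 1).val) * a, by simp [N], by simp [N, ZMod.val_one], by simp [N, ZMod.val_one],
    fun x => ⟨N (2 * (x 0).val) (2 * (x 1).val) 0, eq_mul_inv_of_mul_eq ?_⟩, fun x y => ?_⟩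
  · rw [mul_assoc, ← mul_one (N (2 * _) _ 0), am, mul, mul_one, mul_one]
    exact congrArg (· * a) (md (by revert x; decide +kernel))
  · simp only [mul_assoc, am, mul, a2, mul_one]
    exact congrArg (· * a) (md (by revert x y; decide +kernel))
theorem TG.planeA (h : TG D) {a b c : G} (ha : a ∈ D) (hb : b ∈ D) (hc : c ∈ D) (n1 : ¬ Commute a b) (n2 : ¬ Commute a c) (n3 : ¬ Commute b c)
    (n4 : ¬ Commute (a * b * a) c) : Isomorphic (restrict (threeTranspositionLines D) (span (threeTranspositionLines D)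
      (ln3 D a b (b * a * b⁻¹) ∪ ln3 D a c (c * a * c⁻¹)))) affinePlaneThree := by
  have c3 := fun {x y} (hx : x ∈ D) (hy : y ∈ D) (n : ¬ Commute x y) => h.cube hx hy fun k => (n k).elim
  obtain ⟨p, p0, p1, p2, p3, p4⟩ := heis (s := b * a) (t := c * a) (a := a) (c3 hb ha fun e => n1 e.symm) (c3 hc ha fun e => n2 e.symm)
    (by simpa [mul_assoc, h.inv hc] using c3 hb hc n3) (by simpa [mul_assoc, h.inv ha, h.inv hb, h.inv hc] using c3 (h.cl a ha b hb) hc n4) (h.sq a ha)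
    (by simp [mul_assoc, h.inv ha, h.inv hb]) (by simp [mul_assoc, h.inv ha, h.inv hc])
  rw [mul_assoc, h.sq a ha, mul_one] at p1 p2
  have p5 : p ![2, 0] = a * b * a := by rw [← p0, ← p1, ← p4]; congr 1; decide
  have pD : ∀ x, p x ∈ D := fun x => let ⟨g, e⟩ := p3 x; e ▸ h.cj g a ha
  have ne : ∀ {x y}, ¬ Commute x y → x ≠ y ∧ y ≠ x := fun (n : ¬ Commute (_ : G) _) => ⟨fun e => n (e ▸ .refl _), fun e => n (e ▸ .refl _)⟩
  have inj : Function.Injective p := fun u v e => by_contra fun n => by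
    obtain ⟨w, k⟩ := (by decide +kernel : ∀ u v : Fin 2 → ZMod 3, u ≠ v → ∃ w, (-u - w, -v - w) ∈ [(0, ![1, 0]), (![1, 0], 0), (0, ![0, 1]),
      (![0, 1], 0), (![1, 0], ![0, 1]), (![0, 1], ![1, 0]), (![2, 0], ![0, 1]), (![0, 1], ![2, 0])]) u v n
    have : p (-u - w) = p (-v - w) := by rw [p4, p4, e]
    simp only [List.mem_cons, Prod.mk.injEq, List.not_mem_nil, or_false] at k
    rcases k with k | k | k | k | k | k | k | k <;> rw [k.1, k.2] at this <;> simp only [p0, p1, p2, p5] at this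
    exacts [(ne n1).1 this, (ne n1).2 this, (ne n2).1 this, (ne n2).2 this, (ne n3).1 this, (ne n3).2 this, (ne n4).1 this, (ne n4).2 this]
  rw [← p0, ← p1, ← p2]
  refine h.plane plA p pD inj (fun x y => ⟨fun n k => n ?_, fun n e => n (e ▸ .refl _)⟩) (fun x y _ => by rw [p4, h.inv (pD y)])
    (by decide) (by decide) (by decide +kernel)
  exact (by decide +kernel : ∀ x y : Fin 2 → ZMod 3, -x - y = x → x = y) x y (inj ((p4 x y).trans ((h.comm_iff (pD y) _).1 k.symm)))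
theorem TG.fischer (h : TG D) : IsFischerSpace (threeTranspositionLines D) := by
  refine ⟨fun l hl m hm x y n a b c d => (h.ln_eq hl a b n).2.trans (h.ln_eq hm c d n).2.symm, ?_, fun l hl m hm n ⟨a, a1, a2⟩ => ?_⟩
  · rintro _ ⟨x, y, n, rfl⟩
    have t : tri D x y _ := ⟨x.2, y.2, n, rfl⟩
    refine Set.ncard_eq_three.2 ⟨x, y, ⟨_, h.cj y x x.2⟩, fun e => n (e ▸ .refl _), fun e => (h.tri2 t).2.2.1 ?_,
      fun e => (h.tri2 (h.tri1 t)).2.2.1 ?_, Set.ext fun z => by simp [Subtype.ext_iff]⟩ <;> exact (show _ = y.1 * x.1 * y.1⁻¹ from congrArg Subtype.val e) ▸ .refl _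
  have ex : ∀ l ∈ threeTranspositionLines D, ∃ b ∈ l, a ≠ b := fun l ⟨x, y, n, e⟩ => by
    by_contra! k
    exact n ((k x (e.ge (.inl rfl))).symm.trans (k y (e.ge (.inr (.inl rfl)))) ▸ .refl _)
  obtain ⟨b, b1, b2⟩ := ex l hl
  obtain ⟨c, c1, c2⟩ := ex m hm
  obtain ⟨n1, e1⟩ := h.ln_eq hl a1 b1 b2
  obtain ⟨n2, e2⟩ := h.ln_eq hm a2 c1 c2
  have cl : c ∉ l := fun k => n (e2 ▸ (h.ln_eq hl a1 k c2).2)
  by_cases k : Commute b.1 c.1
  · exact .inl (e1 ▸ e2 ▸ h.planeD a.2 b.2 c.2 n1 n2 k fun e => cl (Subtype.ext e ▸ b1))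
  by_cases k' : Commute (a.1 * b * a) c.1
  · have m : (⟨_, h.cl a a.2 b b.2⟩ : D) ∈ l := e1 ▸ .inr (.inr (by rw [h.inv b.2]; exact h.braid a.2 b.2 n1))
    obtain ⟨n3, e3⟩ := h.ln_eq hl a1 m fun e => b2 (Subtype.ext (by
      have : a.1 = a.1 * b * a := congrArg Subtype.val e
      simpa [mul_assoc, h.ll a.2, h.sq _ a.2] using congrArg (a.1 * · * a.1) this))
    exact .inl (e3 ▸ e2 ▸ h.planeD a.2 (h.cl a a.2 b b.2) c.2 n3 n2 k' fun e => cl (Subtype.ext e ▸ m))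
  exact .inr (e1 ▸ e2 ▸ h.planeA a.2 b.2 c.2 n1 n2 k k')
end H6
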