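import Cfsg.Agent.H6.G3d
/-! The case `O₃(⟨D_d⟩) ≰ Z`. -/
set_option autoImplicit false
set_option linter.unusedSectionVars false
namespace H6
open Cfsg Subgroup H0
variable {G : Type*} [Group G] {D : Set G}

theorem TG.d4a (h : TG D) {a d x y : G} (ha : a ∈ D) (hd : d ∈ D) (hx : x ∈ D) (hy : y ∈ D) (n1 : ¬ Commute d a) (n2 : ¬ Commute x a)
    (n3 : ¬ Commute y a) (c : Commute y x) : Commute d (a * (d * (y * x * a * (y * x)⁻¹) * d⁻¹) * a⁻¹) := by
  have := (h.s4 hy hx ha c n3 n2).1.conj (a * d)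
  rw [h.braid ha hd fun e => n1 e.symm] at this
  simpa [mul_assoc] using this
theorem TG.d4b (h : TG D) {a d x x' y : G} (hx : x ∈ D) (hx' : x' ∈ D) (c0 : Commute d x') (c1 : Commute x' y) (n1 : ¬ Commute x x')
    (n2 : ¬ Commute x a) (c2 : Commute x' a) : ¬ Commute x' (a * (d * (y * x * a * (y * x)⁻¹) * d⁻¹) * a⁻¹) := fun l => by
  rw [← conj_eq_of_comm c2.symm, comm_conj, ← conj_eq_of_comm c0, comm_conj, ← conj_eq_of_comm c1.symm,
    show y * x * a * (y * x)⁻¹ = y * (x * a * x⁻¹) * y⁻¹ by group, comm_conj] at l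
  have := l.conj x
  simp only [h.inv hx, mul_assoc, h.ll hx, h.sq x hx, mul_one] at this
  rw [← mul_assoc, h.braid hx hx' n1] at this
  have := this.conj x'
  rw [conj_eq_of_comm c2] at this
  exact n2 (by simpa [mul_assoc, h.ll hx'] using this)
theorem TG.k4c (h : TG D) {a b c x : G} (ha : a ∈ D) (hb : b ∈ H6.nb D a) (hc : c ∈ D) (n1 : ¬ Commute a c) (n2 : ¬ Commute b c) (hx : x ∈ D)
    (H : ∀ k ∈ ([1, c, a * c] : List G), ¬ Commute (k * a * k⁻¹) x ∧ ¬ Commute (k * b * k⁻¹) x)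
    (W : ∀ p ∈ H6.nb D x, ∀ q ∈ H6.nb D x, Commute p q → p = q) : False := by
  have F : ∀ k ∈ ([1, c, a * c] : List G), k * (a * b) * k⁻¹ * x * (k * (a * b) * k⁻¹)⁻¹ ∈ H6.nb D x := fun k hk => by
    have hb' := (h.nb_cj k).2 hb
    rw [show k * (a * b) * k⁻¹ = k * a * k⁻¹ * (k * b * k⁻¹) by group]
    exact ⟨h.cj _ x hx, fun f => (H k hk).1 (h.fx2 (h.cj k a ha) hb'.1 hb'.2.1 hb'.2.2 hx (comm_of_conj_eq f)),
      (h.s4 (h.cj k a ha) hb'.1 hx hb'.2.2 (H k hk).1 (H k hk).2).1⟩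
  have f3 := F (a * c) (by simp)
  have id : a * b * (a * c * (a * b) * (a * c)⁻¹) = c * (a * b) * c⁻¹ := by
    have b1 : ∀ z, c * (a * (c * z)) = a * (c * (a * z)) := fun z => by simpa only [mul_assoc] using congrArg (· * z) (h.braid ha hc n1).symm
    have b2 : ∀ z, b * (c * (b * z)) = c * (b * (c * z)) := fun z => by simpa only [mul_assoc] using congrArg (· * z) (h.braid hb.1 hc n2)
    have c1 : ∀ z, b * (a * z) = a * (b * z) := fun z => by simpa only [mul_assoc] using congrArg (· * z) hb.2.2.eq.symm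
    simp only [mul_inv_rev, h.inv ha, h.inv hc, mul_assoc]
    calc a * (b * (a * (c * (a * (b * (c * a)))))) = b * (c * (b * (a * (c * (a * 1))))) := by rw [c1, h.ll ha, ← c1, mul_one]
      _ = c * (b * (a * (c * 1))) := by rw [b2, ← b1, h.ll hc]
      _ = _ := by rw [c1, mul_one]
  have := W _ (F 1 (by simp)) _ (F c (by simp)) (by simpa [← id, mul_assoc] using f3.2.2.conj (a * b))
  rw [← id] at this
  exact f3.2.1 (conj_inj' (g := a * b) (by simpa [mul_assoc] using this.symm))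
theorem TG.ncj (h : TG D) (g : G) {S T : Set G} (H : ∀ y, g * y * g⁻¹ ∈ T ↔ y ∈ S) : S.ncard = T.ncard :=
  Set.ncard_congr (fun z _ => g * z * g⁻¹) (fun z => (H z).2) (fun _ _ _ _ => conj_inj')
    fun z hz => ⟨g⁻¹ * z * g, (H _).1 (by simpa [mul_assoc] using hz), by group⟩

namespace TC
variable [Finite G] (h : TC D) (p : PrimE D) (w : W2 D)
include h p w
theorem noW {a b : G} (k : rW D a b) : a = b := by
  refine (p _ h.ieW).elim (fun l => l a b k) fun l => ?_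
  obtain ⟨x, hx, y, hy, n, c⟩ := w
  exact (n (h.wnc (l x hx y hy) c)).elim
theorem lam0 {x f f' : G} (hx : x ∈ D) (hf : f ∈ H6.nb D x) (hf' : f' ∈ H6.nb D x) (n : f ≠ f')
    (e : H6.nb (H6.nb D x) f = H6.nb (H6.nb D x) f') : ∀ u ∈ H6.nb D f, ∀ v ∈ H6.nb D f, Commute u v → u = v := by
  have nc : ¬ Commute f f' := fun c => (e.le ⟨hf', n.symm, c⟩).2.1 rfl
  have xf : x ∈ H6.nb D f := ⟨hx, hf.2.1.symm, hf.2.2.symm⟩
  have t := h.nb f
  have cd : ∀ z ∈ H6.nb D f, (H6.nb (H6.nb D f) x).ncard = (H6.nb (H6.nb D f) z).ncard := fun z hz => by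
    obtain ⟨g, e1, e2⟩ := h.r3' p w hf.1 xf hf.1 hz
    refine h.ncj g fun y => ?_
    rw [← e2]
    exact and_congr (by nth_rewrite 1 [← e1]; exact h.nb_cj g) (and_congr (not_congr ⟨conj_inj', fun l => l ▸ rfl⟩) (comm_conj ..))
  have A : ∀ z ∈ H6.nb D f, ¬ Commute z f' → H6.nb (H6.nb D f) x = H6.nb (H6.nb D f) z := fun z hz l => by
    have zx : ¬ Commute x z := fun c => by
      by_cases k : z = x
      exacts [l (k ▸ hf'.2.2), l (e.le ⟨⟨hz.1, k, c⟩, hz.2⟩).2.2.symm]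
    refine Set.eq_of_subset_of_ncard_le (fun s hs => ⟨hs.1, fun k => zx (k ▸ hs.2.2), by_contra fun k => ?_⟩) (cd z hz).ge
    have s' : s ∈ H6.nb (H6.nb D x) f' := e.le ⟨⟨hs.1.1, hs.2⟩, hs.1.2⟩
    have k1 := h.d4b hf'.1 hf.1 hf.2.2 hs.1.2.2 (fun c => nc c.symm) (fun c => l c.symm) hz.2.2
    have k2 := h.d4a hz.1 hx hf'.1 hs.1.1 zx (fun c => l c.symm) (fun c => k c.symm) s'.2.2.symm
    have k3 := h.d4a hz.1 hf'.1 hx hs.1.1 (fun c => l c.symm) zx (fun c => k c.symm) hs.2.2.symm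
    have id : f' * (s * x * z * (s * x)⁻¹) * f'⁻¹ = x * (s * f' * z * (s * f')⁻¹) * x⁻¹ := by
      have : f' * (s * x) = x * (s * f') := by rw [← mul_assoc, s'.2.2.eq, mul_assoc, ← hf'.2.2.eq, ← mul_assoc, ← hs.2.2.eq, mul_assoc]
      calc _ = f' * (s * x) * z * (f' * (s * x))⁻¹ := by group
        _ = _ := by rw [this]; group
    rw [id] at k3
    refine k1 (e.ge ⟨⟨h.cj _ _ (h.cj _ _ (h.cj _ _ hz.1)), fun c => k1 (by rw [c]; exact hf.2.2.symm), k2⟩, fun c => ?_, k3⟩).2.2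
    have c2 : x * s * z * (x * s)⁻¹ = z := by
      have b := h.braid hz.1 hf'.1 l
      have : f' * (x * s * z * (x * s)⁻¹) * f'⁻¹ = f' * z * f'⁻¹ := by
        calc _ = f' * (x * s) * z * (f' * (x * s))⁻¹ := by group
          _ = x * (s * f') * z * (x * (s * f'))⁻¹ := by rw [← mul_assoc, ← hf'.2.2.eq, mul_assoc x, s'.2.2.eq]
          _ = z⁻¹ * (z * (x * (s * f' * z * (s * f')⁻¹) * x⁻¹) * z⁻¹) * z := by group
          _ = _ := by rw [c, h.inv hz.1, b, h.inv hf'.1]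
      exact conj_inj' this
    exact zx (h.fx2 hx hs.1.1 hs.2.1 hs.2.2 hz.1 (comm_of_conj_eq c2))
  obtain ⟨z, hz, l⟩ : ∃ z ∈ H6.nb D f, ¬ Commute z f' := by
    by_contra! k
    obtain ⟨g, e1⟩ := h.one f hf.1 f' hf'.1
    exact n (h.noW p w ⟨hf.1, hf'.1, Set.eq_of_subset_of_ncard_le (fun y hy => ⟨hy.1, fun c => nc (c ▸ hy.2.2), (k y hy).symm⟩)
      (h.ncj g fun y => e1 ▸ h.nb_cj g).ge⟩)
  have nn : ∀ u ∈ H6.nb D f, ∀ y ∈ H6.nb (H6.nb D f) z, u * y * u⁻¹ ∈ H6.nb (H6.nb D f) (u * z * u⁻¹) := fun u hu y hy =>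
    ⟨t.conj_mem (subset_closure hu) y hy.1, fun k => hy.2.1 (conj_inj' k), hy.2.2.conj u⟩
  have N : closure (H6.nb D f) ≤ normalizer (H6.nb (H6.nb D f) x) := (closure_le _).2 fun u hu => mem_normalizer_fintype fun y hy => by
    by_cases k : Commute u f'
    · rw [A _ (t.conj_mem (subset_closure hu) z hz) fun c => l (by rwa [← conj_eq_of_comm k, comm_conj] at c)]
      exact nn u hu y ((A z hz l).le hy)
    · rwa [conj_eq_of_comm ((A u hu k).le hy).2.2]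
  have E : H6.nb (H6.nb D f) x = ∅ := Set.eq_empty_of_forall_notMem fun s hs => by
    obtain ⟨g, hg, k⟩ := h.r3 p w hf.1 s hs.1 x xf
    exact (k ▸ (N hg s).1 hs).2.1 rfl
  intro u hu v hv c
  by_contra k
  have := cd u hu
  rw [E, Set.ncard_empty, eq_comm, Set.ncard_eq_zero] at this
  exact this.le (⟨hv, Ne.symm k, c⟩ : v ∈ H6.nb (H6.nb D f) u)
section
variable (W : ∀ x ∈ D, ∀ p ∈ H6.nb D x, ∀ q ∈ H6.nb D x, Commute p q → p = q)
include W
omit p w in
theorem mu0 {a c y x z e : G} (ha : a ∈ D) (hc : c ∈ D) (hy : y ∈ H6.nb D a) (n1 : ¬ Commute a c) (n2 : ¬ Commute y c)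
    (hx : x ∈ H6.nb D a) (x2 : Commute c x) (hz : z ∈ H6.nb D a) (z2 : Commute c z) (n : x ≠ z) (he : e ∈ H6.nb D x) (e2 : Commute y e) :
    Commute z e := by
  by_contra n3
  have zy : ¬ Commute y z := fun k => n2 (W a ha y hy z hz k ▸ z2.symm)
  have nx : ∀ t ∈ D, Commute t x → Commute t z → ¬ Commute t e := fun t ht t1 t2 k => n3 (W x hx.1 t
    ⟨ht, fun f => n (W a ha x hx z hz (f ▸ t2)), t1.symm⟩ e he k ▸ t2.symm)
  have b : y * z * y ∈ H6.nb D a := (h.nb a).cl y hy z hz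
  have P : ∀ t ∈ D, ¬ Commute a t → ¬ Commute y t → Commute t x → Commute t z → ¬ Commute (t * (y * z * y) * t⁻¹) e := fun t ht t1 t2 t3 t4 k => by
    have br := h.braid hy.1 ht t2
    have py : Commute (t * (y * z * y) * t⁻¹) y := by
      have : Commute (y * z * y) (t⁻¹ * y * t) := by
        rw [h.inv ht, ← br]; simpa only [h.inv hy.1] using t4.symm.conj y
      simpa [mul_assoc] using this.conj t
    have ey : y ≠ e := fun f => n2 (W a ha y hy x hx (f ▸ he.2.2.symm) ▸ x2.symm)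
    by_cases f : t * (y * z * y) * t⁻¹ = e
    · have q : Commute (y * z * y) x := by rw [← comm_conj t, f, conj_eq_of_comm t3]; exact he.2.2.symm
      rw [← W a ha _ b x hx q] at t3
      have := t3.conj y
      rw [h.inv hy.1, br] at this
      simp only [mul_assoc, h.ll hy.1, h.sq y hy.1, mul_one] at this
      have := this.conj t
      rw [conj_eq_of_comm t4] at this
      exact zy (by simpa [mul_assoc, h.ll ht] using this)
    · have := W e he.1 _ ⟨h.cj t _ b.1, f, k.symm⟩ y ⟨hy.1, ey, e2.symm⟩ py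
      have : y * z * y = y * t * y := calc
        _ = t⁻¹ * (t * (y * z * y) * t⁻¹) * t := by group
        _ = _ := by rw [this, h.inv ht, br]
      exact t1 (mul_left_cancel (mul_right_cancel this) ▸ hz.2.2)
  have cc : ∀ {u v w : G}, Commute u w → Commute v w → Commute (u * v * u⁻¹) w := fun a b => (a.mul_left b).mul_left a.inv_left
  refine h.k4c ha b hc n1 (fun k => ?_) he.1 ?_ (W e he.1)
  · have := k.conj y
    rw [h.inv hy.1, h.braid hy.1 hc n2] at this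
    simp only [mul_assoc, h.ll hy.1, h.sq y hy.1, mul_one] at this
    have := this.conj c
    rw [conj_eq_of_comm z2] at this
    exact zy (by simpa [mul_assoc, h.ll hc, h.inv hc, h.sq c hc] using this.symm)
  simp only [List.mem_cons, List.not_mem_nil, or_false, forall_eq_or_imp, forall_eq]
  refine ⟨⟨nx _ (h.cj _ a ha) (by simpa using hx.2.2) (by simpa using hz.2.2), fun k => n3 ?_⟩,
    ⟨nx _ (h.cj _ a ha) (cc x2 hx.2.2) (cc z2 hz.2.2), P c hc n1 n2 x2 z2⟩,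
    nx _ (h.cj _ a ha) (cc (hx.2.2.mul_left x2) hx.2.2) (cc (hz.2.2.mul_left z2) hz.2.2), ?_⟩
  · have := k.conj y
    rw [conj_eq_of_comm e2] at this
    simpa [mul_assoc, h.ll hy.1, h.inv hy.1, h.sq y hy.1] using this
  · have := P _ (h.cj a c hc) (fun k => n1 (by rwa [← comm_conj a, mul_inv_cancel_right])) (fun k => n2 (by
      rwa [← comm_conj a, conj_eq_of_comm hy.2.2])) (cc hx.2.2 x2) (cc hz.2.2 z2)
    rwa [show a * c * a⁻¹ * (y * z * y) * (a * c * a⁻¹)⁻¹ = a * c * (a⁻¹ * (y * z * y) * a⁻¹⁻¹) * (a * c)⁻¹ by group,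
      conj_eq_of_comm b.2.2.inv_left] at this
theorem mu1 {a c y x z : G} (ha : a ∈ D) (hc : c ∈ D) (hy : y ∈ H6.nb D a) (n1 : ¬ Commute a c) (n2 : ¬ Commute y c)
    (hx : x ∈ H6.nb D a) (x2 : Commute c x) (hz : z ∈ H6.nb D a) (z2 : Commute c z) : x = z := by
  suffices K : ∀ {x z}, x ∈ H6.nb D a → Commute c x → z ∈ H6.nb D a → Commute c z → H6.nb D x ⊆ H6.nb D z from
    h.noW p w ⟨hx.1, hz.1, (K hx x2 hz z2).antisymm (K hz z2 hx x2)⟩
  intro x z hx x2 hz z2 e he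
  by_cases n : x = z
  · exact n ▸ he
  refine ⟨he.1, fun f => n (W a ha x hx z hz (f ▸ he.2.2)), by_contra fun n3 => ?_⟩
  have nx : ∀ t ∈ D, Commute t x → Commute t z → ¬ Commute t e := fun t ht t1 t2 k => n3 (W x hx.1 t
    ⟨ht, fun f => n (W a ha x hx z hz (f ▸ t2)), t1.symm⟩ e he k ▸ t2.symm)
  have K : ∀ k, Commute k x → Commute k z → ¬ Commute (k * a * k⁻¹) e ∧ ¬ Commute (k * y * k⁻¹) e := fun k k1 k2 =>
    ⟨nx _ (h.cj k a ha) ((k1.mul_left hx.2.2).mul_left k1.inv_left) ((k2.mul_left hz.2.2).mul_left k2.inv_left), fun l => n3 (by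
      have := (h.mu0 W ha hc hy n1 n2 hx x2 hz z2 n (e := k⁻¹ * e * k⁻¹⁻¹) (conj_eq_of_comm k1.inv_left ▸ (h.nb_cj _).2 he)
        (by simpa [mul_assoc] using l.conj k⁻¹)).conj k
      rw [conj_eq_of_comm k2] at this
      simpa [mul_assoc] using this)⟩
  refine h.k4c ha hy hc n1 n2 he.1 ?_ (W e he.1)
  simp only [List.mem_cons, List.not_mem_nil, or_false, forall_eq_or_imp, forall_eq]
  exact ⟨K 1 (.one_left _) (.one_left _), K c x2 z2, K _ (hx.2.2.mul_left x2) (hz.2.2.mul_left z2)⟩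
theorem s5w {a x y : G} (ha : a ∈ D) (hx : x ∈ H6.nb D a) (hy : y ∈ H6.nb D a) (n : x ≠ y) : Nonempty (G ≃* Equiv.Perm (Fin 5)) := by
  have n1 : ¬ Commute x y := fun c => n (W a ha x hx y hy c)
  obtain ⟨c, hc, n3⟩ : ∃ c ∈ H6.nb D x, ¬ Commute c y := by
    by_contra! k
    obtain ⟨g, e1⟩ := h.one x hx.1 y hy.1
    exact n (h.noW p w ⟨hx.1, hy.1, Set.eq_of_subset_of_ncard_le (fun z hz => ⟨hz.1, fun c => n1 (c ▸ hz.2.2), (k z hz).symm⟩)
      (h.ncj g fun y => e1 ▸ h.nb_cj g).ge⟩)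
  have n2 : ¬ Commute a c := fun k => n3 (W x hx.1 a ⟨ha, hx.2.1.symm, hx.2.2.symm⟩ c hc k ▸ hy.2.2)
  have cx : CoxA (fun i => [a, c, y, x].getD i 1) 4 := ⟨fun i hi => by interval_cases i <;> simp [h.sq _ ha, h.sq _ hc.1, h.sq _ hx.1, h.sq _ hy.1],
    fun i hi => by obtain rfl | rfl | rfl : i = 0 ∨ i = 1 ∨ i = 2 := by omega
                   exacts [h.braid ha hc.1 n2, h.braid hc.1 hy.1 n3, (h.braid hx.1 hy.1 n1).symm],
    fun i j h1 h2 => by obtain ⟨rfl, rfl⟩ | ⟨rfl, rfl⟩ | ⟨rfl, rfl⟩ : i = 0 ∧ j = 2 ∨ i = 0 ∧ j = 3 ∨ i = 1 ∧ j = 3 := by omega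
                        exacts [hy.2.2, hx.2.2, hc.2.2.symm]⟩
  obtain ⟨θ, h1, h2⟩ := cx.hom
  have m := fun i (hi : i < 4) => h2.ge (mem_lets _ hi)
  have m0 : a ∈ θ.range := m 0 (by decide)
  have m1 : c ∈ θ.range := m 1 (by decide)
  have m2 : y ∈ θ.range := m 2 (by decide)
  have m3 : x ∈ θ.range := m 3 (by decide)
  refine ⟨(MulEquiv.ofBijective θ ⟨sw_inj θ (.inr le_rfl) (by rw [h1 0 (by decide), h1 1 (by decide)]; exact fun e : a = c => n2 (e ▸ .refl a)),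
    MonoidHom.range_eq_top.1 (eq_top_iff.2 (h.gen ▸ (closure_le _).2 (h.k4 ha hy hc.1 n2 (fun e => n3 e.symm) m0 m1
      (fun z hz => by_contra fun o => ?_) W)))⟩).symm⟩
  have A : ∀ g ∈ θ.range, Commute g a → ¬ Commute (g * c * g⁻¹) z ∧ ¬ Commute (g * x * g⁻¹) z := fun g hg k => by
    have hz' : g⁻¹ * z * g⁻¹⁻¹ ∈ H6.nb D a := conj_eq_of_comm k.inv_left ▸ (h.nb_cj _).2 hz
    have : x ≠ g⁻¹ * z * g⁻¹⁻¹ := fun f => o (by simpa [f, mul_assoc] using mul_mem (mul_mem hg m3) (inv_mem hg))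
    exact ⟨fun l => this (h.mu1 p w W ha hc.1 hy n2 (fun e => n3 e.symm) hx hc.2.2.symm hz' (by simpa [mul_assoc] using l.conj g⁻¹)),
      fun l => this (W a ha x hx _ hz' (by simpa [mul_assoc] using l.conj g⁻¹))⟩
  refine h.k4c hx.1 hc hy.1 n1 n3 hz.1 ?_ (W z hz.1)
  simp only [List.mem_cons, List.not_mem_nil, or_false, forall_eq_or_imp, forall_eq]
  exact ⟨(A 1 (one_mem _) (.one_left _)).symm, (A y m2 hy.2.2.symm).symm, (A _ (mul_mem m3 m2) (hx.2.2.mul_right hy.2.2).symm).symm⟩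
end
end TC
theorem s1615 [Finite G] (h : TC D) (hs : ∀ N : Subgroup G, N.Normal → Group.IsSolvable N → N = ⊥)
    (hp : ⁅commutator G, commutator G⁆ = commutator G) {x : G} (hx : x ∈ D)
    (H : ¬ oddCore (closure (nb D x)) ≤ center _) : Nonempty (G ≃* Equiv.Perm (Fin 5)) := by
  obtain ⟨d, hd⟩ : (nb D x).Nonempty := by
    by_contra! k
    exact H fun a _ => mem_center_iff.2 fun b => Subtype.ext (by
      have : ∀ a : closure (nb D x), a.1 = 1 := fun a => by simpa [k] using a.2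
      simp [this])
  have w : W2 D := ⟨x, hx, d, hd.1, hd.2.1.symm, hd.2.2⟩
  have p := h.fis hs hp w
  have t := h.nb x
  let E : Set (closure (nb D x)) := {y | y.1 ∈ nb D x}
  have c : TC E := ⟨⟨⟨fun y hy e => t.ne1 _ hy (congrArg Subtype.val e), fun y hy => Subtype.ext (t.sq _ hy),
    fun y hy z hz => (t.o _ hy _ hz).imp Subtype.ext Subtype.ext, fun y hy z hz => t.cl _ hy _ hz⟩, fun g y hy => t.conj_mem g.2 _ hy⟩, closure_closure_coe_preimage, fun a ha b hb =>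
    let ⟨g, hg, e⟩ := h.r3 p w hx _ ha _ hb; ⟨⟨g, hg⟩, Subtype.ext e⟩⟩
  have hd' : (⟨d, subset_closure hd⟩ : closure (nb D x)) ∈ E := hd
  obtain ⟨q, hq, n⟩ := c.ncen H hd'
  have k := (c.rW_iff hd').2 ⟨c.cj q _ hd', (c.ieN (oddCore _)).core3 c.toT3 (by
    rintro a _ ⟨ha, g, hg, rfl⟩ l
    have := orderOf_eq_one_iff.1 (Nat.eq_one_of_dvd_coprimes H1.coprime_pPrimeCore (orderOf_dvd_natCard _ (c.cmem ha hg))
      (orderOf_dvd_of_pow_eq_one (sq_of_comm (c.sq a ha) (c.sq _ (c.cj g a ha)) l)))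
    rw [eq_inv_of_mul_eq_one_right this, c.inv ha]) ⟨hd', q, hq, rfl⟩⟩
  have e : nb (nb D x) d = nb (nb D x) (q * d * q⁻¹) := Set.ext fun y => by
    by_cases m : y ∈ nb D x
    · have := Set.ext_iff.1 k.2.2 ⟨y, subset_closure m⟩
      exact ⟨fun l => let o := this.1 ⟨m, fun f => l.2.1 (congrArg Subtype.val f), Subtype.ext l.2.2⟩
          ⟨m, fun f => o.2.1 (Subtype.ext f), congrArg Subtype.val o.2.2⟩,
        fun l => let o := this.2 ⟨m, fun f => l.2.1 (congrArg Subtype.val f), Subtype.ext l.2.2⟩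
          ⟨m, fun f => o.2.1 (Subtype.ext f), congrArg Subtype.val o.2.2⟩⟩
    · exact iff_of_false (fun l => m l.1) fun l => m l.1
  have W := h.lam0 p w hx hd k.2.1 (fun f => n (Subtype.ext f.symm)) e
  refine h.s5w p w (fun z hz u hu v hv l => ?_) hx hd k.2.1 (fun f => n (Subtype.ext f.symm))
  obtain ⟨g, rfl⟩ := h.one z hz d hd.1
  exact conj_inj' (W _ ((h.nb_cj g).2 hu) _ ((h.nb_cj g).2 hv) (l.conj g))
end H6
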