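import Cfsg.Agent.H6.CoSub

/-! Orbits of joint stabilisers on minimal vectors with prescribed products. -/

namespace H6
open Cfsg H0 H6M MulAction

def curL (l : List (ℕ × ℕ)) (s : ℕ) : ℕ := (l.headD (0, s)).2

noncomputable def chOK (Ws : List ℕ) (s : ℕ) (l : List (ℕ × ℕ)) : Bool :=
  List.rec true (fun z l ih => (isLe z.2 && (Nat.blt z.1 Ws.length && mapsA (Ws.getD z.1 0) (curL l s) z.2)) && ih) l

theorem chOK_spec {Ws : List ℕ} (hA : ∀ W ∈ Ws, IsA W) {s : ℕ} {a : LL} (ha : (a : Vec) = vz s) (l : List (ℕ × ℕ))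
    (h : chOK Ws s l = true) : ((ev (gL Ws) (l.map Prod.fst) • a : LL) : Vec) = vz (curL l s) := by
  induction l with
  | nil => simpa [curL] using ha
  | cons z l ih =>
    have h' : ((isLe z.2 && (Nat.blt z.1 Ws.length && mapsA (Ws.getD z.1 0) (curL l s) z.2)) && chOK Ws s l) = true := h
    rw [Bool.and_eq_true, Bool.and_eq_true] at h'
    rw [List.map_cons, ev_cons, mul_smul, maps_gL hA h'.1.2 (ih h'.2) (vL_coe h'.1.1)]
    exact vL_coe h'.1.1

/-- the word `w` maps the vector `s` to the vector `t` -/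
noncomputable def mpC (w : List ℕ) (s t : ℕ) (cs : List ℕ) : Bool :=
  isLe s && isLe t && chOK MCo1.Ws s (w.zip cs) && Nat.beq (curL (w.zip cs) s) t && Nat.ble w.length cs.length

theorem mpC_spec {w : List ℕ} {s t : ℕ} {cs : List ℕ} (h : mpC w s t cs = true) :
    ev (gL MCo1.Ws) w • vL s = vL t := by
  simp only [mpC, Bool.and_eq_true, Nat.beq_eq, Nat.ble_eq] at h
  have := chOK_spec MCo1.good.isA (vL_coe h.1.1.1.1) _ h.1.1.2
  rw [List.map_fst_zip h.2, h.1.2, ← vL_coe h.1.1.1.2] at this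
  exact Subtype.ext this

def SD (as : List LL) (ds : List ℤ) : Set LL :=
  {x | x ∈ minV ∧ as.map (fun a : LL => dotInt (a : Vec) (x : Vec)) = ds}

def FX (as : List LL) : Subgroup Co0 where
  carrier := {g | ∀ a ∈ as, g • a = a}
  one_mem' := fun _ _ => one_smul _ _
  mul_mem' := fun ha hb p hp => by rw [mul_smul, hb p hp, ha p hp]
  inv_mem' := fun ha p hp => inv_smul_eq_iff.2 (ha p hp).symm

theorem mem_FX {as : List LL} {g : Co0} : g ∈ FX as ↔ ∀ a ∈ as, g • a = a := Iff.rfl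

theorem SD_fin (as : List LL) (ds : List ℤ) : (SD as ds).Finite := (finite_sqL 32).subset fun _ h => h.1

theorem SD_smul (g : Co0) {as : List LL} {ds : List ℤ} {x : LL} : g • x ∈ SD (as.map (g • ·)) ds ↔ x ∈ SD as ds := by
  simp only [SD, Set.mem_ofPred_eq, minV_iff, List.map_map, Function.comp_def, dot_smulL]

theorem FX_map {as : List LL} {g : Co0} (h : g ∈ FX as) : as.map (g • ·) = as := by
  conv_rhs => rw [← List.map_id as]
  exact List.map_congr_left h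

theorem SD_inv {as : List LL} {ds : List ℤ} (g : Co0) (hg : g ∈ FX as) (x : LL) (hx : x ∈ SD as ds) :
    g • x ∈ SD as ds := by
  rw [← FX_map hg]; exact (SD_smul g).2 hx

theorem mem_SD_cons {a : LL} {as : List LL} {s : ℤ} {ds : List ℤ} {x : LL} :
    x ∈ SD (a :: as) (s :: ds) ↔ x ∈ SD as ds ∧ dotInt (a : Vec) (x : Vec) = s := by
  simp only [SD, Set.mem_ofPred_eq, List.map_cons, List.cons.injEq]; tauto

theorem mem_SD_nil {x : LL} : x ∈ SD [] [] ↔ sqNorm (x : Vec) = 32 := by simp [SD, minV]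

def TT (as : List LL) (ds : List ℤ) (n : ℕ) : Prop :=
  (SD as ds).ncard = n ∧ ∀ x ∈ SD as ds, orb (FX as) x = SD as ds

def CV (a : LL) (as : List LL) (ds es : List ℤ) : Prop := ∀ x ∈ SD as ds, dotInt (a : Vec) (x : Vec) ∈ es

def Cg (as bs : List LL) : Prop := ∃ g : Co0, as.map (g • ·) = bs

theorem cj_FX (g : Co0) (as : List LL) : Cj g (FX as) (FX (as.map (g • ·))) := fun x => by
  simp only [mem_FX, List.mem_map, forall_exists_index, and_imp, forall_apply_eq_imp_iff₂, mul_smul,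
    inv_smul_eq_iff]

theorem TT.of {as bs : List LL} {ds : List ℤ} {n : ℕ} (h : TT as ds n) (c : Cg as bs) : TT bs ds n := by
  obtain ⟨g, rfl⟩ := c
  refine ⟨(ncard_transport g fun x => SD_smul g).trans h.1, fun x hx => ?_⟩
  obtain ⟨y, rfl⟩ : ∃ y, g • y = x := ⟨g⁻¹ • x, smul_inv_smul _ _⟩
  rw [(cj_FX g as).orb_eq, h.2 y ((SD_smul g).1 hx)]
  ext z
  constructor
  · rintro ⟨y, hy, rfl⟩; exact (SD_smul g).2 hy
  · intro hz; exact ⟨g⁻¹ • z, (SD_smul g).1 (by rwa [smul_inv_smul]), smul_inv_smul _ _⟩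

theorem CV.of {a b : LL} {as bs : List LL} {ds es : List ℤ} (h : CV a as ds es) (c : Cg (a :: as) (b :: bs)) :
    CV b bs ds es := by
  obtain ⟨g, e⟩ := c
  rw [List.map_cons, List.cons.injEq] at e
  obtain ⟨rfl, rfl⟩ := e
  intro x hx
  obtain ⟨y, rfl⟩ : ∃ y, g • y = x := ⟨g⁻¹ • x, smul_inv_smul _ _⟩
  rw [dot_smulL]; exact h y ((SD_smul g).1 hx)

theorem TT.tr {as : List LL} {ds : List ℤ} {n : ℕ} (h : TT as ds n) {x y : LL} (hx : x ∈ SD as ds)
    (hy : y ∈ SD as ds) : ∃ g ∈ FX as, g • x = y := (h.2 x hx).ge hy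

theorem TT.ext {as bs : List LL} {ds : List ℤ} {n : ℕ} (h : TT as ds n) (c : Cg as bs) {x y : LL}
    (hx : x ∈ SD as ds) (hy : y ∈ SD bs ds) : Cg (x :: as) (y :: bs) := by
  have h1 := h.of c
  obtain ⟨g, rfl⟩ := c
  obtain ⟨k, hk, e⟩ := h1.tr ((SD_smul g).2 hx) hy
  refine ⟨k * g, ?_⟩
  rw [List.map_cons, mul_smul, e, ← FX_map hk, List.map_map]
  simp only [Function.comp_def, mul_smul]

theorem Cg.dot {a b : LL} {as bs : List LL} {x y : LL} (c : Cg (x :: a :: as) (y :: b :: bs)) :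
    dotInt (y : Vec) (b : Vec) = dotInt (x : Vec) (a : Vec) := by
  obtain ⟨g, e⟩ := c
  simp only [List.map_cons, List.cons.injEq] at e
  rw [← e.1, ← e.2.1, dot_smulL]

theorem orbLr {ws : List (List ℕ)} {d j t : ℕ} {prog : List ℕ} (h : Model.growP MCo1.R ws prog j d = true)
    {K : Subgroup Co0} (hK : ∀ w ∈ ws, ev (gL MCo1.Ws) w ∈ K) (hp : ptOK 0 131072 98280 MCo1.PT t j = true) :
    d ≤ (orb K (vL t)).ncard := by
  obtain ⟨h2, h3⟩ := ptOK_spec hp (ptOK_vL hp)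
  exact (mC.orbGe prog h).trans (mC.orb_le (K := gen mC.g ws) (fun k hk => gen_le hK hk) h2 h3)

theorem orbLr2 {ws : List (List ℕ)} {d j t : ℕ} {prog : List ℕ} (h : Model.growP MCo1.R ws prog j d = true)
    {K : Subgroup Co0} (hn : negC ∈ K) (hK : ∀ w ∈ ws, ev (gL MCo1.Ws) w ∈ K)
    (hp : ptOK 0 131072 98280 MCo1.PT t j = true) (h32 : dEq t t 32 = true) :
    vL t ∈ minV ∧ 2 * d ≤ (orb K (vL t)).ncard := by
  have h1 := sq_of h32 (ptOK_vL hp)
  obtain ⟨h2, h3⟩ := ptOK_spec hp (ptOK_vL hp)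
  exact ⟨h1, (Nat.mul_le_mul_left 2 (mC.orbGe prog h)).trans
    (orb_le2 mC (K := gen mC.g ws) (fun k hk => gen_le hK hk) hn h2 (ne_zero_of_sq h1 (by decide)) h3)⟩

noncomputable def inSD (ts : List ℕ) (ds : List ℤ) (t : ℕ) : Bool :=
  allL isLe (t :: ts) && dEq t t 32 && decide (ts.map (fun u => (dN u t : ℤ) - 393216) = ds)

theorem inSD_spec {ts : List ℕ} {ds : List ℤ} {t : ℕ} (h : inSD ts ds t = true) : vL t ∈ SD (ts.map vL) ds := by
  simp only [inSD, Bool.and_eq_true, allL_iff, decide_eq_true_eq, List.forall_mem_cons] at h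
  refine ⟨sq_of h.1.2 (vL_coe h.1.1.1), ?_⟩
  rw [← h.2, List.map_map]
  refine List.map_congr_left fun u hu => ?_
  simp only [Function.comp_apply, dN_eq, vL_coe h.1.1.1, vL_coe (h.1.1.2 u hu)]; omega

abbrev Ent := ℕ × ℕ × ℕ × ℤ × List ℕ

noncomputable def entOK (ts : List ℕ) (ds : List ℤ) (ws : List (List ℕ)) (e : Ent) : Bool :=
  ptOK 0 131072 98280 MCo1.PT e.1 e.2.1 && inSD ts (e.2.2.2.1 :: ds) e.1 &&
    Model.growP MCo1.R ws e.2.2.2.2 e.2.1 e.2.2.1

/-- certificates that all words fix all vectors -/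
noncomputable def fxV (ts : List ℕ) (C : List (List ℕ × List (List ℕ))) : Bool :=
  allL (fun z => Nat.ble ts.length z.2.length && allL (fun y => mpC z.1 y.1 y.1 y.2) (ts.zip z.2)) C

theorem fxV_spec {ts : List ℕ} {C : List (List ℕ × List (List ℕ))} (h : fxV ts C = true) :
    ∀ w ∈ C.map Prod.fst, ev (gL MCo1.Ws) w ∈ FX (ts.map vL) := by
  intro w hw a ha
  obtain ⟨z, hz, rfl⟩ := List.mem_map.1 hw
  have h1 := allL_iff.1 h z hz
  rw [Bool.and_eq_true, Nat.ble_eq] at h1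
  rw [← List.map_fst_zip h1.1, List.map_map] at ha
  obtain ⟨y, hy, rfl⟩ := List.mem_map.1 ha
  exact mpC_spec (allL_iff.1 h1.2 y hy)

theorem TT_step {ta : ℕ} {ts : List ℕ} {ds : List ℤ} {C : List (List ℕ × List (List ℕ))} (hC : fxV (ta :: ts) C = true)
    (E : List Ent) (hE : allL (entOK (ta :: ts) ds (C.map Prod.fst)) E = true)
    (hn : (E.map fun e => e.2.2.2.1).Nodup) {n : ℕ} (hc : (SD (ts.map vL) ds).ncard = n)
    (hs : n ≤ (E.map fun e => e.2.2.1).sum) :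
    (∀ e ∈ E, TT ((ta :: ts).map vL) (e.2.2.2.1 :: ds) e.2.2.1) ∧
      CV (vL ta) (ts.map vL) ds (E.map fun e => e.2.2.2.1) := by
  have h1 : ∀ e ∈ E, (vL e.1 ∈ SD (ts.map vL) ds ∧ dotInt (vL ta : Vec) (vL e.1 : Vec) = e.2.2.2.1) ∧
      e.2.2.1 ≤ (orb (FX ((ta :: ts).map vL)) (vL e.1)).ncard := fun e he => by
    have := allL_iff.1 hE e he
    simp only [entOK, Bool.and_eq_true] at this
    exact ⟨mem_SD_cons.1 (inSD_spec this.1.2), orbLr this.2 (fxV_spec hC) this.1.1⟩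
  have h2 : (E.map fun e => (vL e.1, e.2.2.1)).map (fun z : LL × ℕ => dotInt (vL ta : Vec) (z.1 : Vec)) =
      E.map fun e => e.2.2.2.1 := by
    rw [List.map_map]; exact List.map_congr_left fun e he => (h1 e he).1.2
  obtain ⟨h3, h4⟩ := decomp (K := FX ((ta :: ts).map vL)) (f := fun x : LL => dotInt (vL ta : Vec) (x : Vec))
    (fun g hg x => by
      conv_lhs => rw [← hg (vL ta) List.mem_cons_self]
      exact dot_smulL _ _ _)
    (E.map fun e => (vL e.1, e.2.2.1)) (SD_fin (ts.map vL) ds)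
    (fun g hg => SD_inv g fun a ha => hg a (List.mem_cons_of_mem _ ha))
    (fun z hz => by obtain ⟨e, he, rfl⟩ := List.mem_map.1 hz; exact ⟨(h1 e he).1.1, (h1 e he).2⟩)
    (h2 ▸ hn) (by rw [hc, List.map_map]; exact hs)
  refine ⟨fun e he => ?_, fun x hx => ?_⟩
  · obtain ⟨h5, h6⟩ := h3 _ (List.mem_map.2 ⟨e, he, rfl⟩)
    have h7 : orb (FX ((ta :: ts).map vL)) (vL e.1) = SD ((ta :: ts).map vL) (e.2.2.2.1 :: ds) := by
      rw [h5]; ext x; rw [List.map_cons, mem_SD_cons, (h1 e he).1.2]; rfl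
    exact ⟨h7 ▸ h6, fun x hx => (orb_eq_of_mem (h7.ge hx)).trans h7⟩
  · obtain ⟨z, hz, e⟩ := h4 x hx
    rw [← h2, e]; exact List.mem_map.2 ⟨z, hz, rfl⟩

theorem vL_V : vL tV = lV := Subtype.ext ((vL_coe (by decide +kernel)).trans leechV_eq.symm)
theorem vL_U : vL tU = lU := Subtype.ext ((vL_coe (by decide +kernel)).trans leechU_eq.symm)
theorem vL_U' : vL tU' = lU' := Subtype.ext ((vL_coe (by decide +kernel)).trans leechU'_eq.symm)

theorem SD_one (a : LL) (s : ℤ) : SD [a] [s] = {x ∈ minV | dotInt (a : Vec) (x : Vec) = s} := by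
  ext x; simp [SD]

end H6
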