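import Cfsg.Agent.H6.LRa

/-! Transport of the standard configurations. -/

namespace H6
open Cfsg H0 H6M MulAction
set_option maxRecDepth 100000

def tnU : ℕ := 0x7c808080808080808080808080808080808080808080807c
def tWW : ℕ := 0x818181818181818181818181818181818181818181818185
def tnUV : ℕ := 0x81818181818181818181818181818181818181818181817d
def tx0 : ℕ := 0x7c8080808080808080808080808080808080808080807c80
def tx2 : ℕ := 0x848080808080808080808080808080808080808080807c80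

theorem sqL {t : ℕ} {z : ℤ} (h : (isLe t && dEq t t z) = true) : sqNorm (vL t : Vec) = z := by
  rw [Bool.and_eq_true] at h; exact sq_of h.2 (vL_coe h.1)

theorem dotL {s t : ℕ} {z : ℤ} (h : (isLe s && isLe t && dEq s t z) = true) :
    dotInt (vL s : Vec) (vL t : Vec) = z := by
  simp only [Bool.and_eq_true] at h; exact dot_of h.2 (vL_coe h.1.1) (vL_coe h.1.2)

theorem cg2 {a b c d : LL} (h : ∃ g : Co0, g • a = c ∧ g • b = d) : Cg [b, a] [d, c] := by
  obtain ⟨g, rfl, rfl⟩ := h; exact ⟨g, rfl⟩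

theorem dot24 {u v : LL} (hu : sqNorm (u : Vec) = 48) (hv : sqNorm (v : Vec) = 32) :
    sqNorm ((u : Vec) - (v : Vec)) = 32 ↔ dotInt (u : Vec) (v : Vec) = 24 := by
  rw [sq_sub, hu, hv]; omega

theorem cg_mcl {u v : LL} (hu : sqNorm (u : Vec) = 48)
    (hv : sqNorm (v : Vec) = 32 ∧ sqNorm ((u : Vec) - (v : Vec)) = 32) : Cg [vL tnU, vL tV] [v, u] :=
  cg2 (trans_pair (sqL (by decide +kernel)) hu (sqL (by decide +kernel)) hv.1 (s := 24) (by decide)
    (dotL (by decide +kernel)) ((dot24 hu hv.1).1 hv.2))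

theorem mclX {u : LL} (v : LL) (hu : sqNorm (u : Vec) = 48) :
    {x : LL | sqNorm (x : Vec) = 32 ∧ sqNorm ((u : Vec) - (x : Vec)) = 32 ∧ dotInt (v : Vec) (x : Vec) = 16} =
      SD [v, u] [16, 24] := by
  ext x
  simp only [mem_SD_cons, mem_SD_nil, Set.mem_ofPred_eq, and_assoc]
  exact and_congr_right fun h => by rw [dot24 hu h]

theorem SD_two (v w : LL) (s t : ℤ) :
    {x : LL | sqNorm (x : Vec) = 32 ∧ dotInt (v : Vec) (x : Vec) = s ∧ dotInt (w : Vec) (x : Vec) = t} =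
      SD [w, v] [t, s] := by
  ext x; simp only [mem_SD_cons, mem_SD_nil, Set.mem_ofPred_eq, and_assoc]

theorem SD_two' (v w : LL) (s t : ℤ) :
    {x : LL | sqNorm (x : Vec) = 32 ∧ dotInt (v : Vec) (x : Vec) = s ∧ dotInt (w : Vec) (x : Vec) = t} =
      SD [v, w] [s, t] := by
  ext x; simp only [mem_SD_cons, mem_SD_nil, Set.mem_ofPred_eq]; tauto

theorem SD_one' (v : LL) (s : ℤ) :
    {x : LL | sqNorm (x : Vec) = 32 ∧ dotInt (v : Vec) (x : Vec) = s} = SD [v] [s] := by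
  ext x; simp only [mem_SD_cons, mem_SD_nil, Set.mem_ofPred_eq]

theorem vL_WW : vL tWW = -(lV + lU') := by
  apply Subtype.ext
  rw [vL_coe (by decide +kernel), AddSubgroup.coe_neg, AddSubgroup.coe_add, leechV_eq, leechU'_eq]
  exact funext (forall_pt (by decide +kernel))

theorem cg_hs {v w : LL} (hv : sqNorm (v : Vec) = 48) (hw : sqNorm (w : Vec) = 48)
    (h : dotInt (v : Vec) (w : Vec) = -32) : Cg [vL tWW, vL tV] [w, v] := by
  obtain ⟨g, h1, h2⟩ := hs_pair hv hw h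
  refine cg2 ⟨g, vL_V ▸ h1, ?_⟩
  rw [vL_WW, smul_neg, smul_add, h1, h2]; abel

theorem cg_f {v w : LL} (hv : sqNorm (v : Vec) = 32) (hw : sqNorm (w : Vec) = 32)
    (h : dotInt (v : Vec) (w : Vec) = -8) : Cg [vL tnUV, vL tU] [v, w] :=
  cg2 (trans_pair2 (sqL (by decide +kernel)) hw (sqL (by decide +kernel)) hv (s := -8) (by decide)
    (dotL (by decide +kernel)) ((dot_comm _ _).trans h))

theorem cg_e {u x : LL} (hu : sqNorm (u : Vec) = 48) (hx : x ∈ SD [u] [-16]) : Cg [vL tU', vL tV] [x, u] :=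
  cg2 (trans_pair (sqL (by decide +kernel)) hu (sqL (by decide +kernel)) hx.1 (s := -16) (by decide)
    (dotL (by decide +kernel)) (mem_SD_cons.1 hx).2)

theorem x0_mem : vL tx0 ∈ SD [vL tnU, vL tV] [16, 24] := inSD_spec (ts := [tnU, tV]) (by decide +kernel)
theorem x1_mem : vL tnU ∈ SD [vL tWW, vL tV] [-24, 24] := inSD_spec (ts := [tWW, tV]) (by decide +kernel)
theorem x2_mem : vL tx2 ∈ SD [vL tnUV, vL tU] [0, 16] := inSD_spec (ts := [tnUV, tU]) (by decide +kernel)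

theorem dot32 {x y : LL} (hx : x ∈ minV) (hy : y ∈ minV) : dotInt (x : Vec) (y : Vec) = 32 ↔ y = x := by
  constructor
  · intro h
    have : sqNorm ((x : Vec) - (y : Vec)) = 0 := by
      rw [sq_sub, h, show sqNorm (x : Vec) = 32 from hx, show sqNorm (y : Vec) = 32 from hy]; rfl
    exact (Subtype.ext (sub_eq_zero.1 (sq_eq_zero this))).symm
  · rintro rfl; rw [dot_self]; exact hx

theorem FX2 (a b : LL) : FX [b, a] = stabilizer Co0 a ⊓ stabilizer Co0 b := by
  ext g; simp [mem_FX, and_comm]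

theorem FX3 (a b c : LL) : FX [c, a, b] = stabilizer Co0 a ⊓ stabilizer Co0 b ⊓ stabilizer Co0 c := by
  ext g; simp only [mem_FX, List.forall_mem_cons, Subgroup.mem_inf, mem_stabilizer_iff]; simp; tauto

theorem TT.ex {a : LL} {as : List LL} {s : ℤ} {ds : List ℤ} {n : ℕ} (h : TT (a :: as) (s :: ds) n) (hn : n ≠ 0) :
    ∃ y ∈ SD as ds, orbit (FX (a :: as)) y = SD (a :: as) (s :: ds) ∧ (orbit (FX (a :: as)) y).ncard = n := by
  obtain ⟨y, hy⟩ := Set.nonempty_of_ncard_ne_zero (h.1.trans_ne hn)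
  have := (orb_eq_orbit _ _).symm.trans (h.2 y hy)
  exact ⟨y, (mem_SD_cons.1 hy).1, this, this ▸ h.1⟩

theorem hs_fpf : ∃ g : Co0, g ∈ FX [vL tWW, vL tV] ∧ orderOf g = 2 ∧
    ∀ x ∈ SD [vL tWW, vL tV] [-24, 24], g • x ≠ x := by
  have hK : FX [vL tWW, vL tV] = stabilizer Co0 lV ⊓ stabilizer Co0 lU' := by
    rw [FX2, vL_V, vL_WW, stab_neg, stab_add]
  let g := ev aHS.g [4, 6, 6, 3, 10]
  have h1 : ∀ x ∈ SD [vL tWW, vL tV] [-24, 24], g.1 • x ≠ x := by
    intro x hx e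
    obtain ⟨k, hk, rfl⟩ := rc.1.2.2.tr x1_mem hx
    have hp : ptOK 0 128 100 MHS.PT tnU 0 = true := by decide +kernel
    obtain ⟨h2, h3⟩ := ptOK_spec hp (ptOK_vL hp)
    have h4 := aHS.rel' ⟨k, hK ▸ hk⟩ h2 h3
    have h5 := aHS.φ_lt ⟨k, hK ▸ hk⟩ h2
    have h6 := (aHS.φ_eq_iff g h5 h5 h4 h4).2 (by
      show MHS.D.r (g.1 • k • vL tnU) (k • vL tnU)
      rw [show g.1 • k • vL tnU = k • vL tnU from e]; exact MHS.D.eqv.refl _)
    generalize aHS.φ ⟨k, hK ▸ hk⟩ 0 = i at h5 h6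
    have h7 : i < 100 := h5
    rw [aHS.φ_ev] at h6
    have a1 := fun h => BN.mapsW_spec MHS.R (u := [4, 6, 6, 3, 10]) (S := 0x5080002ad74efe67cfffff)
      (T := 0xfffaf7fffd528b10198300000) (by decide +kernel) (j := i) (h7.trans (by decide +kernel)) h
    have a2 := fun h => BN.mapsW_spec MHS.R (u := [4, 6, 6, 3, 10]) (T := 0x5080002ad74efe67cfffff)
      (S := 0xfffaf7fffd528b10198300000) (by decide +kernel) (j := i) (h7.trans (by decide +kernel)) h
    rw [show ev MHS.R.p [4, 6, 6, 3, 10] i = i from h6] at a1 a2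
    have a3 : ∀ i < 100, Nat.testBit 0x5080002ad74efe67cfffff i ≠ Nat.testBit 0xfffaf7fffd528b10198300000 i := by
      decide +kernel
    exact a3 i h7 (Bool.eq_iff_iff.2 ⟨a1, a2⟩)
  refine ⟨g.1, hK.ge g.2, ?_, h1⟩
  have h2 := aHS.ev_one (MHS.inj qHS) (ws := [[4, 6, 6, 3, 10] ++ [4, 6, 6, 3, 10]])
    (Model.via _ (R := MHS.R) rfl (fun R => BN.relsW R 0 R.lg [[4, 6, 6, 3, 10] ++ [4, 6, 6, 3, 10]])
      (by decide +kernel)) _ (List.mem_singleton_self _)
  rw [ev_append] at h2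
  refine orderOf_eq_prime (by rw [pow_two]; exact congrArg Subtype.val h2) fun e => h1 _ x1_mem ?_
  rw [e, one_smul]

end H6
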