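import Cfsg.Agent.H6.ST
import Cfsg.Agent.H1.XS
import Cfsg.Prelude.Def_MonsterType

/-! The large extraspecial subgroup of `M24`: abstract part. -/

namespace H6
open Cfsg Subgroup
open scoped commutatorElement

abbrev SL32 : Type := Matrix.SpecialLinearGroup (Fin 3) (ZMod 2)

structure Dat {G : Type} [Group G] (z : G) (Q K E : Subgroup G) : Prop where
  oz : orderOf z = 2
  cC : Nat.card (centralizer {z}) = 21504
  cQ : Nat.card Q = 128
  cE : Nat.card E = 16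
  cK : Nat.card K = 168
  iso : Nonempty (K ≃* SL32)
  zE : z ∈ E
  qC : ∀ q ∈ Q, q * z = z * q ∧ (q * q = 1 ∨ q * q = z)
  kC : ∀ k ∈ K, k * z = z * k ∧ ∀ q ∈ Q, k * q * k⁻¹ ∈ Q
  odd : ∀ x ∈ K, x ≠ 1 → ∃ g ∈ K, (x * (g * x * g⁻¹)) ^ 21 = 1 ∧ x * (g * x * g⁻¹) ≠ 1
  e1 : ∀ e ∈ E, e ∈ Q ∧ e * e = 1 ∧ ∀ f ∈ E, e * f = f * e
  e2 : ∀ e ∈ E, (∀ q ∈ Q, e * q = q * e) → e = 1 ∨ e = z
  e3 : ∀ e ∈ E, e ≠ 1 → ∀ x, x * e = e * x → ∀ f ∈ E, x * f * x⁻¹ ∈ E
  cen : ∀ x, (∀ e ∈ E, x * e = e * x) → x ∈ E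

variable {G : Type} [Group G] {z : G} {Q K E : Subgroup G}

noncomputable def comapEq (ψ : G ≃* G) (K : Subgroup G) : K.comap ψ.toMonoidHom ≃* K :=
  (MulEquiv.subgroupCongr (comap_equiv_eq_map_symm' ψ K)).trans (ψ.symm.subgroupMap K).symm

theorem Dat.comap (ψ : G ≃* G) (h : Dat (ψ z) Q K E) :
    Dat z (Q.comap ψ.toMonoidHom) (K.comap ψ.toMonoidHom) (E.comap ψ.toMonoidHom) := by
  have c : ∀ K : Subgroup G, Nat.card (K.comap ψ.toMonoidHom) = Nat.card K := fun K => Nat.card_congr (comapEq ψ K).toEquiv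
  have i : ∀ {a b}, ψ a = ψ b ↔ a = b := ψ.apply_eq_iff_eq
  have m : ∀ {K : Subgroup G} {a}, a ∈ K.comap ψ.toMonoidHom ↔ ψ a ∈ K := Iff.rfl
  have s : ∀ {K : Subgroup G} {x}, (∀ e ∈ K.comap ψ.toMonoidHom, x * e = e * x) → ∀ e ∈ K, ψ x * e = e * ψ x := fun a e he => by
    obtain ⟨e, rfl⟩ := ψ.surjective e
    rw [← map_mul, a e he, map_mul]
  refine ⟨(ψ.orderOf_eq z).symm.trans h.oz, ?_, (c _).trans h.cQ, (c _).trans h.cE, (c _).trans h.cK,
    h.iso.map (comapEq ψ K).trans, h.zE, fun q hq => ?_, fun k hk => ⟨?_, fun q hq => ?_⟩, fun x hx n => ?_,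
    fun e he => ⟨(h.e1 _ he).1, ?_, fun f hf => ?_⟩, fun e he a => ?_, fun e he n x a f hf => ?_, fun x a => h.cen _ (s a)⟩
  · rw [← h.cC, ← c (centralizer {ψ z})]
    congr 3; ext x
    rw [m, mem_centralizer_singleton_iff, mem_centralizer_singleton_iff, ← map_mul, ← map_mul, i]
  · simpa only [← map_mul, i, MulEquiv.map_eq_one_iff] using h.qC _ (m.1 hq)
  · simpa only [← map_mul, i] using (h.kC _ (m.1 hk)).1
  · simpa only [m, map_mul, map_inv] using (h.kC _ (m.1 hk)).2 _ (m.1 hq)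
  · obtain ⟨g, hg, a⟩ := h.odd _ (m.1 hx) (by simpa using n)
    obtain ⟨g, rfl⟩ := ψ.surjective g
    exact ⟨g, hg, by simpa only [← map_mul, ← map_inv, ← map_pow, Ne, MulEquiv.map_eq_one_iff] using a⟩
  · simpa only [← map_mul, MulEquiv.map_eq_one_iff] using (h.e1 _ (m.1 he)).2.1
  · simpa only [← map_mul, i] using (h.e1 _ (m.1 he)).2.2 _ (m.1 hf)
  · simpa only [i, MulEquiv.map_eq_one_iff] using h.e2 _ (m.1 he) (s a)
  · simpa only [m, map_mul, map_inv] using h.e3 _ (m.1 he) (by simpa using n) (ψ x) (by rw [← map_mul, a, map_mul]) _ (m.1 hf)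

theorem card_mul_le_of_disj [Finite G] {A B L : Subgroup G} (h : A ⊓ B = ⊥) (hA : A ≤ L) (hB : B ≤ L) :
    Nat.card A * Nat.card B ≤ Nat.card L := by
  rw [← Nat.card_prod]
  exact Nat.card_le_card_of_injective (fun g : A × B => (⟨g.1 * g.2, mul_mem (hA g.1.2) (hB g.2.2)⟩ : L))
    fun a b e => mul_injective_of_disjoint (disjoint_iff.2 h) (congrArg Subtype.val e)

namespace Dat
variable [Finite G] (h : Dat z Q K E)
include h

theorem inf_bot {N : Subgroup G} (hN : IsPGroup 2 N) (hn : ∀ k ∈ K, ∀ q ∈ N, k * q * k⁻¹ ∈ N) : N ⊓ K = ⊥ := by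
  rw [eq_bot_iff]
  intro x hx
  by_contra n
  obtain ⟨g, hg, a, b⟩ := h.odd x hx.2 n
  obtain ⟨k, hk⟩ := hN ⟨_, mul_mem hx.1 (hn g hg x hx.1)⟩
  exact b (orderOf_eq_one_iff.1 (Nat.eq_one_of_dvd_coprimes ((by norm_num : Nat.Coprime 2 21).pow_left k)
    (orderOf_dvd_of_pow_eq_one (congrArg Subtype.val hk)) (orderOf_dvd_of_pow_eq_one a)))

theorem pQ : IsPGroup 2 Q := IsPGroup.of_card (n := 7) h.cQ
theorem QC : Q ≤ centralizer {z} := fun q hq => mem_centralizer_singleton_iff.2 (h.qC q hq).1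
theorem KC : K ≤ centralizer {z} := fun q hq => mem_centralizer_singleton_iff.2 (h.kC q hq).1
theorem QK : Q ⊓ K = ⊥ := h.inf_bot h.pQ fun k hk => (h.kC k hk).2
theorem sup : Q ⊔ K = centralizer {z} := eq_of_le_of_card_le (sup_le h.QC h.KC) (by
  have := card_mul_le_of_disj h.QK le_sup_left le_sup_right
  rw [h.cQ, h.cK] at this
  rw [h.cC]; exact this)
theorem nrm : centralizer {z} ≤ normalizer (Q : Set G) :=
  h.sup ▸ sup_le le_normalizer fun k hk => mem_normalizer_fintype (h.kC k hk).2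

theorem core : (pCore 2 (centralizer {z})).map (centralizer {z}).subtype = Q := by
  have : (Q.subgroupOf (centralizer {z})).Normal := (normal_subgroupOf_iff_le_normalizer h.QC).2 h.nrm
  have h1 : Q ≤ (pCore 2 (centralizer {z})).map (centralizer {z}).subtype := fun q hq =>
    ⟨⟨q, h.QC hq⟩, H1.le_pCore (N := Q.subgroupOf _) h.pQ.comap_subtype hq, rfl⟩
  have h2 := card_mul_le_of_disj (h.inf_bot (N := (pCore 2 (centralizer {z})).map (centralizer {z}).subtype)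
    (H1.isPGroup_pCore.map _) (by
      rintro k hk _ ⟨q, hq, rfl⟩
      exact ⟨_, (pCore_normal 2 _).conj_mem q hq ⟨k, h.KC hk⟩, rfl⟩)) (map_subtype_le _) h.KC
  rw [h.cC, h.cK] at h2
  exact (eq_of_le_of_card_le h1 (by rw [h.cQ]; omega)).symm

theorem cz {x : G} (a : ∀ q ∈ Q, x * q = q * x) : x = 1 ∨ x = z :=
  h.e2 x (h.cen x fun e he => a e (h.e1 e he).1) a

theorem ctr : (center Q).map Q.subtype = zpowers z ∧ centralizer (Q : Set G) = zpowers z := by
  have zq := (h.e1 z h.zE).1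
  have a : centralizer (Q : Set G) ≤ zpowers z := fun x hx => by
    rcases h.cz (fun q hq => (hx q hq).symm) with rfl | rfl
    exacts [one_mem _, mem_zpowers _]
  have b : zpowers z ≤ (center Q).map Q.subtype :=
    zpowers_le.2 ⟨⟨z, zq⟩, mem_center_iff.2 fun q => Subtype.ext (h.qC q q.2).1, rfl⟩
  have c : (center Q).map Q.subtype ≤ centralizer (Q : Set G) := by
    rintro _ ⟨x, hx, rfl⟩ q hq
    exact congrArg Subtype.val (mem_center_iff.1 hx ⟨q, hq⟩)
  exact ⟨le_antisymm (c.trans a) b, le_antisymm a (b.trans c)⟩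

theorem es : IsExtraspecial 2 Q := by
  have zq := (h.e1 z h.zE).1
  have sq : ∀ a ∈ Q, ∀ b ∈ Q, b * (a * a) * b⁻¹ ∈ zpowers z := fun a ha b hb => by
    rcases (h.qC a ha).2 with e | e <;> rw [e]
    · simp
    · rw [(h.qC b hb).1, mul_inv_cancel_right]; exact mem_zpowers _
  refine H1B.XS.es (z := z) ⟨⟨zq, h.oz, h.ctr.2.ge (mem_zpowers _), fun a ha b hb => ?_, fun a ha => ?_⟩,
    le_antisymm (inf_le_right.trans h.ctr.2.le) (le_inf (zpowers_le.2 zq) h.ctr.2.ge)⟩ fun c => ?_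
  · have := mul_mem (mul_mem (sq _ (mul_mem ha hb) 1 (one_mem _)) (sq _ (inv_mem ha) _ (inv_mem hb)))
      (sq _ (inv_mem hb) 1 (one_mem _))
    convert this using 1
    rw [commutatorElement_def]; group
  · simpa [pow_two] using sq a ha 1 (one_mem _)
  · have := card_le_of_le (c.trans h.ctr.2.le)
    rw [h.cQ, Nat.card_zpowers, h.oz] at this
    omega

theorem noOdd (L : Subgroup G) (hL : Odd (Nat.card L)) (hn : Q ≤ normalizer (L : Set G)) : L = ⊥ := by
  have sq : ∀ x ∈ L, x * x = 1 → x = 1 := fun x hx e => orderOf_eq_one_iff.1 (Nat.eq_one_of_dvd_coprimes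
    (Nat.coprime_two_left.2 hL) (orderOf_dvd_of_pow_eq_one ((pow_two x).trans e)) (orderOf_dvd_natCard L hx))
  have cj : ∀ e ∈ E, ∀ x ∈ L, e * x * e⁻¹ ∈ L := fun e he x hx => (hn (h.e1 e he).1 x).1 hx
  have inv : ∀ e ∈ E, e ≠ 1 → ∀ x ∈ L, e * x * e⁻¹ = x⁻¹ := fun e he n x hx => by
    let φ : L →* L := MonoidHom.mk' (fun x => ⟨_, cj e he x x.2⟩) fun a b => Subtype.ext (by simp)
    have h1 : MonoidHom.FixedPointFree φ := fun y hy => Subtype.ext (by
      have a : (y : G) * e = e * y := (mul_inv_eq_iff_eq_mul.1 (congrArg Subtype.val hy)).symm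
      refine sq y y.2 (h.e1 _ (h.cen _ fun f hf => ?_)).2.1
      have b := sq (y * (f * y⁻¹ * f⁻¹)) (mul_mem y.2 (cj f hf _ (inv_mem y.2))) (h.e1 _ (by
        simpa [mul_assoc] using mul_mem (h.e3 e he n y a f hf) (inv_mem hf))).2.1
      rw [← mul_assoc, ← mul_assoc, mul_inv_eq_one] at b
      exact mul_inv_eq_iff_eq_mul.1 b)
    have h2 : Function.Involutive φ := fun y => Subtype.ext (by
      show e * (e * y * e⁻¹) * e⁻¹ = y
      rw [show e * (e * y * e⁻¹) * e⁻¹ = e * e * y * (e * e)⁻¹ by group, (h.e1 e he).2.1]; simp)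
    exact congrArg Subtype.val (congrFun (h1.coe_eq_inv_of_involutive h2) ⟨x, hx⟩)
  obtain ⟨f, hf, n⟩ : ∃ f ∈ E, f ∉ zpowers z := SetLike.not_le_iff_exists.1 fun c => by
    have := card_le_of_le c
    rw [h.cE, Nat.card_zpowers, h.oz] at this
    omega
  have z1 : z ≠ 1 := fun e => by have := h.oz; rw [e, orderOf_one] at this; omega
  rw [eq_bot_iff]
  intro x hx
  have a := inv _ (mul_mem h.zE hf) (fun e => n (by rw [eq_inv_of_mul_eq_one_right e]; exact inv_mem (mem_zpowers _))) x hx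
  rw [show z * f * x * (z * f)⁻¹ = z * (f * x * f⁻¹) * z⁻¹ by group, inv f hf (fun e => n (e ▸ one_mem _)) x hx,
    inv z h.zE z1 _ (inv_mem hx), inv_inv] at a
  exact sq x hx (mul_eq_one_iff_eq_inv.2 a)

theorem large : IsLargeExtraspecial Q :=
  ⟨h.es, h.ctr.2.trans h.ctr.1.symm, by
    rw [h.ctr.1]
    exact (centralizer_le (Set.singleton_subset_iff.2 (mem_zpowers z))).trans h.nrm, h.noOdd⟩

end Dat
end H6
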