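import Cfsg.Agent.H6.More

/-! Structure of the sextet and trio stabilisers. -/

namespace H6
open Cfsg Finset MulAction
open scoped Pointwise
set_option maxRecDepth 100000

theorem norm64 {G : Type*} [Group G] [Finite G] {H K : Subgroup G} (hKH : K ≤ H)
    (hn : ∀ h ∈ H, ∀ k ∈ K, h * k * h⁻¹ ∈ K) (hc : 2 ^ 6 ∣ Nat.card K) (h1 : ∀ x ∈ K, x * x = 1 ∨ x * x * x = 1)
    (h2 : {x | x ∈ K ∧ x * x = 1}.ncard ≤ 64) : ∃ N : Subgroup H, N.Normal ∧ Nat.card N = 64 ∧ ∀ x ∈ N, x * x = 1 := by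
  have : Fact (Nat.Prime 2) := ⟨Nat.prime_two⟩
  obtain ⟨P0, hP0⟩ := Sylow.exists_subgroup_card_pow_prime 2 hc
  obtain ⟨P, hPK, hP⟩ : ∃ P : Subgroup G, P ≤ K ∧ Nat.card P = 64 :=
    ⟨P0.map K.subtype, Subgroup.map_subtype_le _, by rw [Subgroup.card_subtype, hP0]; rfl⟩
  have h3 : ∀ x ∈ P, x * x = 1 := fun x hx => by
    refine (h1 x (hPK hx)).elim id fun h => ?_
    have h4 : x ^ 64 = 1 := by
      have := congrArg Subtype.val (pow_card_eq_one' (x := (⟨x, hx⟩ : P)))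
      rwa [hP] at this
    have h5 : x ^ 3 = 1 := by rw [← h, pow_succ, pow_two]
    rw [show 64 = 3 * 21 + 1 from rfl, pow_succ, pow_mul, h5, one_pow, one_mul] at h4
    rw [h4, one_mul]
  have h4 : (P : Set G) = {x | x ∈ K ∧ x * x = 1} :=
    Set.eq_of_subset_of_ncard_le (fun x hx => ⟨hPK hx, h3 x hx⟩) (by rw [← Nat.card_coe_set_eq (P : Set G)]; exact h2.trans hP.ge)
  refine ⟨P.subgroupOf H, ⟨fun x hx g => ?_⟩, ?_, fun x hx => Subtype.ext (h3 _ hx)⟩
  · have : ∀ g ∈ H, ∀ x ∈ P, g * x * g⁻¹ ∈ (P : Set G) := fun g hg x hx => by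
      rw [h4]
      refine ⟨hn _ hg _ (hPK hx), ?_⟩
      rw [show g * x * g⁻¹ * (g * x * g⁻¹) = g * (x * x) * g⁻¹ by group, h3 _ hx]; simp
    exact this _ g.2 _ hx
  · rw [← hP]; exact Nat.card_congr (Subgroup.subgroupOfEquivOfLe (hPK.trans hKH)).toEquiv

noncomputable def K192 : Subgroup M24 := stabilizer M24 S0 ⊓ stabilizer M24 (dec 0xf) ⊓ stabilizer M24 (dec 0x342000) ⊓
  stabilizer M24 (dec 0x824020) ⊓ stabilizer M24 (dec 0x98100) ⊓ stabilizer M24 (dec 0x1490)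
noncomputable def c192 : ℕ → Bool := fxS (fxS (fxS (fxS (fxS (fxF inM 6 mS0) 0xf) 0x342000) 0x824020) 0x98100) 0x1490
theorem ck192 : Ck c192 K192 := (((((ckF 6 mS0).fxS _).fxS _).fxS _).fxS _).fxS _
def tr192 : List (ℕ × List ℕ) := [(0, [0xbdab49ca307b9ac5a928398a418820, 0xbae8d448b09c6a43312f3d9ca00861, 0xb99b57c9d04168ab11333ae2c08803, 0xbda55450b09c5aa49ccf62dc418402]), (1, [0xbdab49ca307b9ac5a928398a418820, 0xba6ad7d1d0416445a8d365a2710460, 0xb9ab2434b09c6875aacf225cc08c40]), (4, [0xbdab49ca307b9ac5a928398a418820, 0x72eb4848b345da7b10cf6262a18820, 0x2ae4d9d5d07c68ab30c8226e718820, 0x8da4d856f34168459d2f519cc18820]), (5, [0xbdab49ca307b9ac5a928398a418820, 0x71a4d7d4a89de8c4a9703da2418820, 0x2a695835d34464c32acf3aee418820, 0x8adb2452ef816acb28d33a5c418820])]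

theorem card192 : Nat.card K192 ≤ tcnt tr192 c192 := by
  rw [show tcnt tr192 c192 = 192 by decide +kernel]
  have h1 := card_le_of_orb (a := dec 0xf) (d := 6) (e := 23040) sextets_main.2.le (le_trans (by decide +kernel)
    ((ckF 6 mS0).orbS_le (gs := [0x1d14c71005b88efaa2519b4305a4d6]) (by decide +kernel) (fun m => Nat.mod m 19) 3 9
      (by norm_num))) le_rfl (by norm_num)
  have h2 := card_le_of_orb (a := dec 0x342000) (d := 5) (e := 4608) h1 (le_trans (by decide +kernel)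
    (((ckF 6 mS0).fxS _).orbS_le (gs := [0x45d47a92726c18672634b15eb18820]) (by decide +kernel) (fun m => Nat.mod m 19) 3 9
      (by norm_num))) le_rfl (by norm_num)
  have h3 := card_le_of_orb (a := dec 0x824020) (d := 4) (e := 1152) h2 (le_trans (by decide +kernel)
    ((((ckF 6 mS0).fxS _).fxS _).orbS_le (gs := [0x42a8db55e95c25161486b9e6e00462]) (by decide +kernel)
      (fun m => Nat.mod m 19) 3 9 (by norm_num))) le_rfl (by norm_num)
  have h4 := card_le_of_orb (a := dec 0x98100) (d := 3) (e := 384) h3 (le_trans (by decide +kernel)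
    (((((ckF 6 mS0).fxS _).fxS _).fxS _).orbS_le (gs := [0x8b255b52eb495af3cd46411d010460]) (by decide +kernel)
      (fun m => Nat.mod m 19) 3 9 (by norm_num))) le_rfl (by norm_num)
  exact card_le_of_orb (a := dec 0x1490) (d := 2) (e := 192) h4 (le_trans (by decide +kernel)
    ((((((ckF 6 mS0).fxS _).fxS _).fxS _).fxS _).orbS_le (gs := [0x732554362f9de863d8904a8ab00823]) (by decide +kernel)
      (fun m => Nat.mod m 19) 3 9 (by norm_num))) le_rfl (by norm_num)

theorem kerS_le : stabilizer M24 S0 ⊓ fixingSubgroup M24 (S0 : Set (Finset GolayPt)) ≤ K192 := fun g hg => by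
  have h := (mem_fixingSubgroup_iff M24).1 hg.2
  have m : ∀ i < 6, dec (lane 24 mS0 i) ∈ (S0 : Set (Finset GolayPt)) := fun i hi => mem_decF.2 ⟨i, hi, rfl⟩
  exact ⟨⟨⟨⟨⟨hg.1, h _ (m 0 (by decide))⟩, h _ (m 1 (by decide))⟩, h _ (m 2 (by decide))⟩, h _ (m 3 (by decide))⟩,
    h _ (m 4 (by decide))⟩

theorem sext_ker {S : Finset (Finset GolayPt)} (hS : S ∈ sextets) :
    Nat.card (stabilizer M24 S) = 138240 ∧
    Nat.card ↥(stabilizer M24 S ⊓ fixingSubgroup M24 (S : Set (Finset GolayPt))) ≤ 192 ∧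
    (∀ x ∈ stabilizer M24 S ⊓ fixingSubgroup M24 (S : Set (Finset GolayPt)), x * x = 1 ∨ x * x * x = 1) ∧
    {x | x ∈ stabilizer M24 S ⊓ fixingSubgroup M24 (S : Set (Finset GolayPt)) ∧ x * x = 1}.ncard ≤ 64 := by
  obtain ⟨g, rfl⟩ := tr_sextet hS
  have c := (Cj.stab g S0).inf (Cj.fixing g S0)
  refine ⟨(Cj.stab g S0).card.trans sextets_main.2, ?_, fun x hx => ?_, ?_⟩
  · rw [c.card]
    exact (Subgroup.card_le_of_le kerS_le).trans (card192.trans (by decide +kernel))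
  · obtain ⟨t, ht, e, hq⟩ := ck192.forall_mem tr192 card192
      (fun t => Nat.beq (mulT t t) idT || Nat.beq (mulT (mulT t t) t) idT) (by decide +kernel) _ (kerS_le ((c x).1 hx))
    rw [Bool.or_eq_true, ← ht.mul_eq_one_iff ht, ← (ht.mul ht).mul_eq_one_iff ht, ht.E_mul ht, e] at hq
    rcases hq with h | h
    · left; rw [show x * x = g * (g⁻¹ * x * g * (g⁻¹ * x * g)) * g⁻¹ by group, h]; simp
    · right; rw [show x * x * x = g * (g⁻¹ * x * g * (g⁻¹ * x * g) * (g⁻¹ * x * g)) * g⁻¹ by group, h]; simp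
  · have := ck192.ncard_le tr192 card192 (A := {x | x ∈ K192 ∧ x * x = 1}) (fun _ h => h.1)
      (fun t => Nat.beq (mulT t t) idT) fun t ht h => (ht.mul_eq_one_iff ht).1 h.2
    refine le_trans (Set.ncard_le_ncard_of_injOn (t := {x | x ∈ K192 ∧ x * x = 1}) (fun x => g⁻¹ * x * g) (fun x hx => ⟨kerS_le ((c x).1 hx.1), ?_⟩)
      (fun x _ y _ e => by simpa using e)) (this.trans (by decide +kernel))
    rw [show g⁻¹ * x * g * (g⁻¹ * x * g) = g⁻¹ * (x * x) * g by group, hx.2]; simp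

/-! ### the trio -/

theorem hom_of_rel2 {G H : Type*} [Group G] [Group H] (W : Subgroup (G × H)) (hW : ∀ σ, (1, σ) ∈ W → σ = 1) (L : Subgroup G) (hL : L ≤ W.map (.fst G H)) :
    ∃ π : L →* H, ∀ (g : L) σ, ((g : G), σ) ∈ W ↔ π g = σ := by
  have u : ∀ g σ τ, (g, σ) ∈ W → (g, τ) ∈ W → σ = τ := fun g σ τ a b =>
    inv_mul_eq_one.1 (hW _ (by simpa using mul_mem (inv_mem a) b))
  have : ∀ g : L, ∃ σ, ((g : G), σ) ∈ W := fun g => let ⟨p, hp, e⟩ := hL g.2; ⟨p.2, by rw [← e]; exact hp⟩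
  choose f hf using this
  exact ⟨MonoidHom.mk' f fun a b => u _ _ _ (hf (a * b)) (mul_mem (hf a) (hf b)), fun g σ => ⟨u _ _ _ (hf g), fun e => e ▸ hf g⟩⟩

def sxT : List ℕ := [0x0, 0xd001002082200e080001604000141100008e, 0xb00020408300090840066000001016000489, 0x908200600120086800070040001098000407, 0x8081207002000b400004284000140c000093, 0xa003005080200a204005480000148200001d, 0xc002203081000d200002484000108500041a, 0xe080001003200c404003280000100b000494]
def sxN (v : Fin 3 → ZMod 2) : ℕ := sxT.getD ((v 0).val + 2 * (v 1).val + 4 * (v 2).val) 0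
def ocN (i : Fin 3) : ℕ := lane 24 mT0 i

theorem sx_inj : ∀ v w : Fin 3 → ZMod 2, decF 6 (sxN v) = decF 6 (sxN w) → v = w := by
  intro v w h
  have h1 : dec (lane 24 (sxN v) 0) ∈ decF 6 (sxN w) := h ▸ mem_decF.2 ⟨0, by decide, rfl⟩
  obtain ⟨i, hi, e⟩ := mem_decF.1 h1
  have h2 := dec_inj (lane_lt _ _ _) (lane_lt _ _ _) e
  revert v w i
  suffices ∀ v w : Fin 3 → ZMod 2, ∀ i < 6, lane 24 (sxN w) i = lane 24 (sxN v) 0 → v = w from
    fun v w _ _ i hi _ h => this v w i hi h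
  decide +kernel

theorem oc_inj : ∀ i j : Fin 3, dec (ocN i) = dec (ocN j) → i = j := by
  intro i j h
  have h2 := dec_inj (lane_lt _ _ _) (lane_lt _ _ _) h
  revert i j
  suffices ∀ i j : Fin 3, lane 24 mT0 i = lane 24 mT0 j → i = j from fun i j _ h => this i j h
  decide +kernel

def trW : Subgroup (M24 × (GL (Fin 3) (ZMod 2) × Equiv.Perm (Fin 3))) where
  carrier := {z | (∀ v, z.1 • decF 6 (sxN v) = decF 6 (sxN (z.2.1.val.mulVec v))) ∧
    ∀ i, z.1 • dec (ocN i) = dec (ocN (z.2.2 i))}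
  one_mem' := ⟨fun v => by simp, fun i => by simp⟩
  mul_mem' := fun {a b} ha hb => ⟨fun v => by
    rw [Prod.fst_mul, mul_smul, hb.1, ha.1, Matrix.mulVec_mulVec]; rfl, fun i => by
    rw [Prod.fst_mul, mul_smul, hb.2, ha.2]; rfl⟩
  inv_mem' := fun {a} ha => ⟨fun v => by
    rw [Prod.fst_inv, inv_smul_eq_iff, ha.1, Matrix.mulVec_mulVec, Prod.snd_inv, Prod.fst_inv, Units.mul_inv,
      Matrix.one_mulVec], fun i => by
    rw [Prod.fst_inv, inv_smul_eq_iff, ha.2, Prod.snd_inv, Prod.snd_inv]; simp⟩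

theorem trW_of {t : ℕ} (ht : Gd t) (A : GL (Fin 3) (ZMod 2)) (σ : Equiv.Perm (Fin 3))
    (h1 : ∀ v, (subF 6 (imgF 6 t (sxN v)) (sxN (A.val.mulVec v)) &&
      subF 6 (sxN (A.val.mulVec v)) (imgF 6 t (sxN v))) = true) (h2 : ∀ i, img t (ocN i) = ocN (σ i)) :
    E t ∈ trW.map (.fst _ _) :=
  ⟨(E t, A, σ), ⟨fun v => by
    have := h1 v
    rw [Bool.and_eq_true] at this
    rw [ht.smul_decF]; exact (subF_spec this.1).antisymm (subF_spec this.2), fun i => by
    exact (ht.smul_dec (lane_lt _ _ _)).trans (congrArg dec (h2 i))⟩, rfl⟩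

noncomputable def K64 : Subgroup M24 := stabilizer M24 T0 ⊓ stabilizer M24 (dec 0x149f) ⊓ stabilizer M24 (dec 0xf6840) ⊓
  stabilizer M24 (decF 6 0xd001002082200e080001604000141100008e) ⊓
  stabilizer M24 (decF 6 0xb00020408300090840066000001016000489) ⊓
  stabilizer M24 (decF 6 0x8081207002000b400004284000140c000093)
noncomputable def c64 : ℕ → Bool := fxF (fxF (fxF (fxS (fxS (fxF inM 3 mT0) 0x149f) 0xf6840)
  6 0xd001002082200e080001604000141100008e) 6 0xb00020408300090840066000001016000489) 6 0x8081207002000b400004284000140c000093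
theorem ck64 : Ck c64 K64 := (((((ckF 3 mT0).fxS _).fxS _).fxF _ _).fxF _ _).fxF _ _
def tr64 : List (ℕ × List ℕ) := [(0, [0xbdab49ca307b9ac5a928398a418820, 0xb5de85c646ab5ca9b0b40c12010ce4, 0x2a6955c646435c199ecf542e201183, 0xa20b78ae6e4c0c0911f6136aa09c6c, 0x4950f9ca30a39a7586f561ac320142, 0x4513694d6d29a04882b71b9ec3844a, 0xabee594d6db1a038890923a8762801, 0x7d6c98ae6ebc0c290e850350153087]), (5, [0xbdab49ca307b9ac5a928398a418820, 0xabee5339abb4a2c829093ce8418820, 0xb5de894d6da9a0c8a8b43b92418820, 0xa20b75c6464b5cc9a9f63c2a418820, 0x7d6c971a11bcd6c6aa853c90418820, 0x2a695835d34464c32acf3aee418820, 0x451368ae6e2c0cc92ab73b5e418820, 0x4950f6c0d2a2e6c72af53c6c418820])]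

theorem card_T01 : Nat.card ↥(stabilizer M24 T0 ⊓ stabilizer M24 (dec 0x149f) ⊓ stabilizer M24 (dec 0xf6840)) ≤ 10752 := by
  have h1 := card_le_of_orb (a := dec 0x149f) (d := 3) (e := 21504) trios_main.2.le (le_trans (by decide +kernel)
    ((ckF 3 mT0).orbS_le (gs := [0x10027b1534555f1bb88c6a06b84e46]) (by decide +kernel) hC 512 5 (by norm_num))) le_rfl
    (by norm_num)
  exact card_le_of_orb (d := 2) h1 (le_trans (by decide +kernel)
    (((ckF 3 mT0).fxS _).orbS_le (gs := [0x6ce112d9e895ea3a09c63a56053024]) (by decide +kernel) hC 512 5 (by norm_num)))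
    le_rfl (by norm_num)

theorem card64 : Nat.card K64 ≤ tcnt tr64 c64 := by
  rw [show tcnt tr64 c64 = 64 by decide +kernel]
  have h3 := card_le_of_orb (a := decF 6 0xd001002082200e080001604000141100008e) (d := 7) (e := 1536) card_T01
    (le_trans (by decide +kernel) ((((ckF 3 mT0).fxS _).fxS _).orbF_le (gs := [0x4d2e8349cd7c16c982c5146a1228e3])
      (by decide +kernel) hS 4099 513 9 (card_decF (by decide +kernel)))) le_rfl (by norm_num)
  have h4 := card_le_of_orb (a := decF 6 0xb00020408300090840066000001016000489) (d := 6) (e := 256) h3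
    (le_trans (by decide +kernel) (((((ckF 3 mT0).fxS _).fxS _).fxF _ _).orbF_le
      (gs := [0xa5937839b2acd60330a81c5ea38824, 0xb20b76b8d2aae2a831f43cd2410c20])
      (by decide +kernel) hS 4099 513 9 (card_decF (by decide +kernel)))) le_rfl (by norm_num)
  exact card_le_of_orb (d := 4) h4
    (le_trans (by decide +kernel) ((((((ckF 3 mT0).fxS _).fxS _).fxF _ _).fxF _ _).orbF_le
      (gs := [0x4d50f740d1bae6168e8504ac251187, 0x45df6839ab2c64432ab41cd2c38820])
      (by decide +kernel) hS 4099 513 9 (card_decF (by decide +kernel)))) le_rfl (by norm_num)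

theorem trio_hom : ∃ π : stabilizer M24 T0 →* GL (Fin 3) (ZMod 2) × Equiv.Perm (Fin 3),
    ∀ g ∈ π.ker, g.1 ∈ K64 := by
  obtain ⟨π, hπ⟩ := hom_of_rel2 trW (fun σ h => Prod.ext (Units.ext (Matrix.toLin'.injective (LinearMap.ext fun v => by
      have := sx_inj _ _ ((one_smul _ _).symm.trans (h.1 v))
      simpa using this.symm)))
      (Equiv.ext fun i => (oc_inj _ _ ((one_smul _ _).symm.trans (h.2 i))).symm)) (stabilizer M24 T0)
    (le_of_chain (l := [0x8b566426ef816c2a8e530d1c0530e4, 0x43d3760867b101154285586b3919ae]) (by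
      have h := (ckF 3 mT0).all (l := [0x8b566426ef816c2a8e530d1c0530e4, 0x43d3760867b101154285586b3919ae])
        (by decide +kernel)
      simp only [List.forall_mem_cons, List.not_mem_nil, false_imp_iff, implies_true, and_true] at h ⊢
      exact ⟨⟨h.1.1, h.1.2, trW_of h.1.1 ⟨!![1, 0, 0; 0, 1, 0; 1, 1, 1], !![1, 0, 0; 0, 1, 0; 1, 1, 1], by decide +kernel,
          by decide +kernel⟩ (Equiv.swap 1 2) (by decide +kernel) (by decide +kernel)⟩,
        ⟨h.2.1, h.2.2, trW_of h.2.1 ⟨!![0, 1, 1; 0, 0, 1; 1, 1, 0], !![1, 1, 1; 1, 1, 0; 0, 1, 0], by decide +kernel,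
          by decide +kernel⟩ (Equiv.swap 0 1) (by decide +kernel) (by decide +kernel)⟩⟩)
      [(0, 1), (0, 1), (0, 3), (0, 3), (0, 5), (0, 5), (6, 7), (0, 8), (0, 8), (0, 9), (0, 4), (0, 5), (2, 2), (0, 7), (0, 0), (0, 1), (2, 4), (3, 3), (0, 6), (0, 7), (0, 6), (9, 7), (0, 10), (0, 9), (3, 3), (9, 8), (0, 9)]
      [(0, [0x43d3760867b101154285586b3919ae, 0x8b566426ef816c2a8e530d1c0530e4]), (1, [0x6b8d22d688826cab9e710bd6320980, 0x734d3bd135820aa7862b1da4261c80]), (2, [0x6c6067da895dd0329253555c261c20, 0x92db3a5aef324a4431d11560a38c20]), (3, [0x5c613a22d56a5ecba9d2394c418820, 0x2ddf532e6e44a2782ad46352320820, 0x93a712d2ef322c3aaa0d2256760820, 0x2a695835d34464c32acf3aee418820]), (5, [0x2a695835d34464c32acf3aee418820, 0xa20b75c6464b5cc9a9f63c2a418820, 0x5c613a22d56a5ecba9d2394c418820, 0x71a4d7d4a89de8c4a9703da2418820])]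
      (trios_main.2.le.trans (by decide +kernel)))
  refine ⟨π, fun g hg => ?_⟩
  have h := (hπ g 1).2 hg
  have h1 : ∀ v, g.1 • decF 6 (sxN v) = decF 6 (sxN v) := fun v => (h.1 v).trans (by simp)
  have h2 : ∀ i, g.1 • dec (ocN i) = dec (ocN i) := h.2
  have a0 := h2 0
  have a1 := h2 1
  have b0 := h1 ![1, 0, 0]
  have b1 := h1 ![0, 1, 0]
  have b2 := h1 ![0, 0, 1]
  rw [show ocN 0 = 0x149f by decide +kernel] at a0
  rw [show ocN 1 = 0xf6840 by decide +kernel] at a1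
  rw [show sxN ![1, 0, 0] = 0xd001002082200e080001604000141100008e by decide +kernel] at b0
  rw [show sxN ![0, 1, 0] = 0xb00020408300090840066000001016000489 by decide +kernel] at b1
  rw [show sxN ![0, 0, 1] = 0x8081207002000b400004284000140c000093 by decide +kernel] at b2
  exact ⟨⟨⟨⟨⟨g.2, a0⟩, a1⟩, b0⟩, b1⟩, b2⟩

theorem K64_sq {g : M24} (h : g ∈ K64) : g * g = 1 := by
  obtain ⟨t, ht, rfl, hq⟩ := ck64.forall_mem tr64 card64 (fun t => Nat.beq (mulT t t) idT) (by decide +kernel) _ h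
  exact (ht.mul_eq_one_iff ht).2 hq

end H6
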