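import Cfsg.Agent.H6.Co1
import Cfsg.Agent.H0.Stem
/-! `Co0` is a stem extension of `Co1` with kernel of order two. -/
set_option autoImplicit false
namespace H6
open Cfsg
open scoped commutatorElement

theorem negC_mem_commutator : negC ∈ commutator Co0 := by
  have hc : D0ᶜ ∈ dodecads := by
    refine ⟨CC_compl D0_mem.1, ?_⟩
    rw [Finset.card_compl, D0_mem.2]; rfl
  obtain ⟨σ, hσ⟩ := tr_dodecad D0_mem hc
  have key : mono σ ⟨∅, CC_empty⟩ * mono 1 ⟨D0, D0_mem.1⟩ =
      negC * (mono 1 ⟨D0, D0_mem.1⟩ * mono σ ⟨∅, CC_empty⟩) := by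
    refine co0_ext fun v => Subtype.ext (funext fun i => ?_)
    obtain ⟨j, rfl⟩ : ∃ j, σ • j = i := ⟨σ⁻¹ • i, smul_inv_smul _ _⟩
    have h1 : σ • j ∈ D0 ↔ j ∉ D0 := by
      have : σ • j ∈ D0ᶜ ↔ j ∈ D0 := by rw [← hσ]; exact Finset.smul_mem_smul_finset_iff σ
      rw [← this, Finset.mem_compl, not_not]
    have h2 := mono_apply 1 ⟨D0, D0_mem.1⟩ v j
    have h3 := mono_apply 1 ⟨D0, D0_mem.1⟩ (mono σ ⟨∅, CC_empty⟩ • v) (σ • j)
    have h4 := mono_apply σ ⟨∅, CC_empty⟩ v j
    simp only [one_smul, Finset.notMem_empty, if_false] at h2 h3 h4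
    rw [mul_smul, mul_smul, mul_smul, negC_smul, mono_apply, h2]
    simp only [Finset.notMem_empty, if_false, AddSubgroup.coe_neg, Pi.neg_apply, h3, h4, h1]
    by_cases hj : j ∈ D0 <;> simp [hj]
  have : negC = ⁅mono σ ⟨∅, CC_empty⟩, mono 1 ⟨D0, D0_mem.1⟩⁆ := by
    rw [commutatorElement_def, key]; group
  rw [this]
  exact Subgroup.commutator_mem_commutator (Subgroup.mem_top _) (Subgroup.mem_top _)

theorem center_le_commutator : Subgroup.center Co0 ≤ commutator Co0 := fun z hz => by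
  rcases mem_center_iff.1 hz with rfl | rfl
  exacts [one_mem _, negC_mem_commutator]

theorem stemCo1 : H0.StemElt Cfsg.Spor.Co1 2 := by
  have hk := QuotientGroup.ker_mk' (Subgroup.center Co0)
  refine ⟨Co0, inferInstance, inferInstance, QuotientGroup.mk' _,
    ⟨QuotientGroup.mk'_surjective _, hk.le, hk.le.trans center_le_commutator⟩, ?_⟩
  rw [hk]
  have := isCyclic_of_prime_card (p := 2) card_center
  rw [IsCyclic.exponent_eq_card, card_center]

end H6
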