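import Cfsg.Agent.H6.MX

/-! Overgroups of Sylow subgroups in `M24` and `M23`. -/

namespace H6
open Cfsg Finset MulAction
open scoped Pointwise
set_option maxRecDepth 100000

theorem Ck.sub_orb {c : ℕ → Bool} {K : Subgroup M24} (hc : Ck c K) (gs : List ℕ) (j m : ℕ)
    (h : (allL (H6.fxS c m) gs && tb m j && Nat.ble j 23 && Nat.ble (pc m) (orbP gs j)) = true) :
    ∀ p ∈ dec m, p ∈ orb K (pt j) := by
  simp only [Bool.and_eq_true, Nat.ble_eq, tb_eq] at h
  intro p hp
  have := orb_eq (K := K ⊓ stabilizer M24 (dec m)) (A := ↑(dec m)) (Set.toFinite _)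
    (fun g hg b hb => (smul_mem_of_stab hg.2).2 hb) (a := pt j) ((pt_mem_dec (by omega)).2 h.1.1.2)
    (by rw [Set.ncard_coe_finset, card_dec]; exact h.2.trans ((hc.fxS m).orbP_le h.1.1.1 (by omega)))
  exact orb_mono inf_le_left _ (this.ge hp)

theorem smul_mem_orb_iff {G α : Type*} [Group G] [MulAction G α] {K : Subgroup G} {a b : α} {g : G} (hg : g ∈ K) :
    g • b ∈ orb K a ↔ b ∈ orb K a :=
  ⟨fun h => by simpa using smul_mem_orb (inv_mem hg) h, smul_mem_orb hg⟩

theorem mem_orb_of {G α : Type*} [Group G] [MulAction G α] {K : Subgroup G} {a b c : α} (h : c ∈ orb K b) :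
    c ∈ orb K a ↔ b ∈ orb K a := by
  obtain ⟨g, hg, rfl⟩ := h; exact smul_mem_orb_iff hg

theorem stab_of_iff {G α : Type*} [Group G] [MulAction G α] [DecidableEq α] {K : Subgroup G} {s : Finset α}
    {P : α → Prop} (hP : ∀ k ∈ K, ∀ p, P (k • p) ↔ P p) (h : ∀ p, p ∈ s ↔ P p) : K ≤ stabilizer G s := fun k hk => by
  ext p
  rw [← inv_smul_mem_iff, h, h, hP _ (inv_mem hk)]

theorem orb_compl {K : Subgroup M24} {a : GolayPt} {m : ℕ} (h : ∀ p, p ∈ orb K a ↔ p ∉ dec m) :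
    K ≤ stabilizer M24 (dec m) ∧ 24 - pc m ∣ Nat.card K := by
  refine ⟨stab_of_iff (P := (· ∉ orb K a)) (fun k hk p => (smul_mem_orb_iff hk).not) fun p => by rw [h, not_not], ?_⟩
  rw [card_orb K a, show orb K a = {p | p ∉ dec m} from Set.ext h, ncard_compl_pts, card_dec]
  exact Dvd.intro _ rfl

theorem card_stab_set {s : Finset GolayPt} {k e : ℕ} (hs : s.card = k) (h5 : k ≤ 5) (he : 244823040 = Nat.choose 24 k * e) :
    Nat.card (stabilizer M24 s) = e := by
  refine card_stab_top ?_ he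
  rw [show orb (⊤ : Subgroup M24) s = {U | U.card = k} from Set.ext fun U => ⟨by
    rintro ⟨g, -, rfl⟩; exact (card_smul_finset _ _).trans hs, fun hU =>
      (tr_set (hU.trans hs.symm) (hs ▸ h5)).imp fun g hg => ⟨trivial, hg⟩⟩, ncard_subsets]

theorem conj_in {G : Type*} [Group G] [Finite G] {p : ℕ} (hp : p.Prime) {M H P : Subgroup G} (hH : H ≤ M) (hP : P ≤ M)
    (pP : IsPGroup p P) {a b : ℕ} (hK : Nat.card H = a) (hM : Nat.card M = a * b) (h : ¬ p ∣ b) :
    ∃ u ∈ M, ∃ K, Cj u K H ∧ P ≤ K ∧ K ≤ M := by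
  have h1 := (H.subgroupOf M).card_mul_index
  rw [Nat.card_congr (Subgroup.subgroupOfEquivOfLe hH).toEquiv, hK, hM] at h1
  have h2 : 0 < a := hK ▸ Nat.card_pos
  obtain ⟨g, hg⟩ := exists_conj_le hp (pP.comap_subtype (K := M)) (H := H.subgroupOf M)
    (by rwa [Nat.eq_of_mul_eq_mul_left h2 h1])
  refine ⟨g.1⁻¹, inv_mem g.2, H.comap (MulAut.conj g.1⁻¹).toMonoidHom, fun z => by simp [mul_assoc],
    fun x hx => by simpa [Subgroup.mem_subgroupOf] using hg ⟨x, hP hx⟩ hx, fun x hx => ?_⟩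
  have := mul_mem (mul_mem g.2 (hH hx)) (inv_mem g.2)
  simpa [mul_assoc] using this

theorem Cj.uniq {G : Type*} [Group G] {g : G} {K A B : Subgroup G} (h1 : Cj g K A) (h2 : Cj g K B) : A = B :=
  h1.eq_map.trans h2.eq_map.symm

theorem ck_S0 : Ck (fxP cS2 0) (Syl2 ⊓ stabilizer M24 (pt 0)) := ck_S2.fxP 0

theorem loc23 {K : Subgroup M24} (h0 : K ≤ stabilizer M24 (pt 0)) (hS : Syl2 ⊓ stabilizer M24 (pt 0) ≤ K)
    (h11 : ¬ 11 ∣ Nat.card K) (h23 : ¬ 23 ∣ Nat.card K) : K ≤ stabilizer M24 O0 ∨ K ≤ stabilizer M24 (dec 0x1411) ∨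
    ∀ p, p ∈ orb K (pt 1) ↔ p ∉ dec 0x1401 := by
  have ck := ck_S0.mono hS
  have o1 := ck.sub_orb [0x5c613a22d56a5ecba9d2394c418820, 0x7a6f55ce50a38ca8b1051b6c409c40] 1 0x8e (by decide +kernel)
  have o5 := ck.sub_orb [0x5c613a22d56a5ecba9d2394c418820, 0x7a6f55ce50a38ca8b1051b6c409c40] 5 0xffeb60 (by decide +kernel)
  have o10 := ck.sub_orb [0x5c613a22d56a5ecba9d2394c418820, 0x7a6f55ce50a38ca8b1051b6c409c40] 10 0x1400 (by decide +kernel)
  have n0 : pt 0 ∉ orb K (pt 1) := by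
    rintro ⟨k, hk, e⟩
    rw [← show k • pt 0 = pt 0 from h0 hk, smul_left_cancel_iff] at e
    exact absurd e (by decide)
  by_cases h5 : pt 5 ∈ orb K (pt 1)
  · right
    have key : ∀ m, dec m ⊆ dec 0x1411 → pt 0 ∈ dec m → (pt 4 ∈ orb K (pt 1) ↔ pt 4 ∉ dec m) →
        (pt 10 ∈ orb K (pt 1) ↔ pt 10 ∉ dec m) → (pt 10 ∈ dec m ↔ pt 12 ∈ dec m) → ∀ p, p ∈ orb K (pt 1) ↔ p ∉ dec m := by
      intro m a1 a2 a3 a4 a5 p
      rcases (by decide +kernel : ∀ p, p ∈ dec 0x8e ∧ p ∉ dec 0x1411 ∨ p ∈ dec 0xffeb60 ∧ p ∉ dec 0x1411 ∨ p = pt 0 ∨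
        p = pt 4 ∨ p = pt 10 ∨ p = pt 12) p with h | h | rfl | rfl | rfl | rfl
      · exact iff_of_true (o1 p h.1) fun h' => h.2 (a1 h')
      · exact iff_of_true ((mem_orb_of (o5 p h.1)).2 h5) fun h' => h.2 (a1 h')
      · exact iff_of_false n0 (not_not.2 a2)
      · exact a3
      · exact a4
      · rw [mem_orb_of (o10 _ (by decide +kernel)), a4, a5]
    by_cases h4 : pt 4 ∈ orb K (pt 1) <;> by_cases h10 : pt 10 ∈ orb K (pt 1)
    · exact absurd (orb_compl (key 1 (by decide +kernel) (by decide +kernel) (iff_of_true h4 (by decide +kernel))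
        (iff_of_true h10 (by decide +kernel)) (by decide +kernel))).2 (by rwa [show 24 - pc 1 = 23 by decide +kernel])
    · exact Or.inr (key _ (by decide +kernel) (by decide +kernel) (iff_of_true h4 (by decide +kernel))
        (iff_of_false h10 (by decide +kernel)) (by decide +kernel))
    · exact absurd (Dvd.dvd.trans (by decide +kernel) (orb_compl (key 0x11 (by decide +kernel) (by decide +kernel)
        (iff_of_false h4 (by decide +kernel)) (iff_of_true h10 (by decide +kernel)) (by decide +kernel))).2) h11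
    · exact Or.inl (orb_compl (key _ (by decide +kernel) (by decide +kernel) (iff_of_false h4 (by decide +kernel))
        (iff_of_false h10 (by decide +kernel)) (by decide +kernel))).1
  · left
    intro k hk
    refine octad_eq_of_five ((smul_mem_octads _ _).2 O0_mem) O0_mem (le_trans ?_ (card_le_card (s := k • dec 0x8f) ?_))
    · rw [card_smul_finset]; decide +kernel
    · refine subset_inter (smul_finset_subset_smul_finset (by decide +kernel)) fun q hq => ?_
      obtain ⟨p, hp, rfl⟩ := mem_smul_finset.1 hq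
      rcases (by decide +kernel : ∀ p ∈ dec 0x8f, p = pt 0 ∨ p ∈ dec 0x8e) p hp with rfl | h
      · rw [show k • pt 0 = pt 0 from h0 hk]; decide +kernel
      · by_contra h'
        exact h5 ((mem_orb_of (o5 _ ((by decide +kernel : ∀ p, p ∉ O0 → p ∈ dec 0xffeb60) _ h'))).1
          (smul_mem_orb hk (o1 p h)))


end H6
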