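import Cfsg.Agent.H6.TL

/-! Overgroups of a Sylow 2-subgroup of `M24`. -/

namespace H6
open Cfsg Finset MulAction
open scoped Pointwise
set_option maxRecDepth 100000

theorem card_trans {H : Subgroup M24} {a : GolayPt} (h : ∀ p, p ∈ orb H a) (b : GolayPt) :
    Nat.card H = 24 * Nat.card ↥(H ⊓ stabilizer M24 b) := by
  rw [card_orb H b, orb_eq_of_mem (h b), show orb H a = Set.univ from Set.eq_univ_of_forall h, Set.ncard_univ,
    Nat.card_eq_fintype_card, card_pt]

def Sx : Finset (Finset GolayPt) := decF 6 0x141100008e0e0800d00100208220016040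
theorem Sx_mem : Sx ∈ sextets := decF_mem_sextets (by decide +kernel)
theorem card_Sx : Nat.card (stabilizer M24 Sx) = 138240 := by
  obtain ⟨g, hg⟩ := tr_sextet Sx_mem
  rw [(Cj.stab' hg).card, sextets_main.2]

theorem loc24 {H : Subgroup M24} (hS : Syl2 ≤ H) (h11 : ¬ 11 ∣ Nat.card H) (h23 : ¬ 23 ∣ Nat.card H)
    (hb : 138240 ≤ Nat.card H) : H ≤ stabilizer M24 O0 ∨ H = stabilizer M24 Sx := by
  have ck := ck_S2.mono hS
  have o0 := ck_S2.sub_orb [0x458b45ce50ab8c3889f75352120187, 0x8ca0ba95373228a7b1d31d9a409c40] 0 0x149f (by decide +kernel)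
  have o5 := ck.sub_orb [0x458b45ce50ab8c3889f75352120187, 0x8ca0ba95373228a7b1d31d9a409c40] 5 0xffeb60 (by decide +kernel)
  have oc : ∀ p, p ∉ O0 → p ∈ dec 0xffeb60 := by decide +kernel
  by_cases h5 : pt 5 ∈ orb H (pt 0)
  swap
  · exact Or.inl (stab_of_iff (P := (· ∈ orb H (pt 0))) (fun k hk p => smul_mem_orb_iff hk) fun p =>
      ⟨fun h => orb_mono hS _ (o0 p h), fun h => by_contra fun h' => h5 ((mem_orb_of (o5 _ (oc p h'))).1 h)⟩)
  have tr : ∀ p, p ∈ orb H (pt 0) := fun p => by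
    by_cases h : p ∈ O0
    · exact orb_mono hS _ (o0 p h)
    · exact (mem_orb_of (o5 _ (oc p h))).2 h5
  have c24 := card_trans tr (pt 0)
  have dv : Nat.card ↥(H ⊓ stabilizer M24 (pt 0)) ∣ Nat.card H := Subgroup.card_dvd_of_le inf_le_left
  right
  rcases loc23 inf_le_right (inf_le_inf_right _ hS) (fun h => h11 (h.trans dv)) (fun h => h23 (h.trans dv)) with h | h | h
  · exfalso
    have b1 : ∀ g ∈ H, ∀ g' ∈ H, ∀ p, p ∈ g • O0 → p ∈ g' • O0 → g • O0 = g' • O0 := by
      intro g hg g' hg' p h1 h2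
      obtain ⟨s, hs, e1⟩ := o0 _ (inv_smul_mem_iff.2 h1)
      obtain ⟨s', hs', e2⟩ := o0 _ (inv_smul_mem_iff.2 h2)
      have h3 : ((g' * s')⁻¹ * (g * s)) • O0 = O0 := h ⟨H.mul_mem (H.inv_mem (H.mul_mem hg' (hS hs'))) (H.mul_mem hg (hS hs)), by
        show _ • _ = _
        rw [mul_smul, mul_smul, e1, smul_inv_smul, inv_smul_eq_iff, mul_smul, e2, smul_inv_smul]⟩
      rwa [mul_smul, inv_smul_eq_iff, mul_smul, mul_smul, show s • O0 = O0 from hs.1.1.2,
        show s' • O0 = O0 from hs'.1.1.2] at h3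
    have b2 : ∀ g ∈ H, ∀ g' ∈ H, (Nat.beq (enc (g • O0)) (enc (g' • O0)) ||
        Nat.beq (Nat.land (enc (g • O0)) (enc (g' • O0))) 0) = true := by
      intro g hg g' hg'
      rw [Bool.or_eq_true, Nat.beq_eq, Nat.beq_eq]
      by_cases hd : Disjoint (g • O0) (g' • O0)
      · exact Or.inr ((disjoint_iff_enc _ _).1 hd)
      · obtain ⟨p, h1, h2⟩ := not_disjoint_iff.1 hd
        exact Or.inl (congrArg enc (b1 g hg g' hg' p h1 h2))
    have b3 : ∀ g ∈ H, g • O0 ∈ T0 := by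
      intro g hg
      have s1 := ck 0x5c613a22d56a5ecba9d2394c418820 (by decide +kernel)
      have s2 := ck 0x7a6f55ce50a38ca8b1051b6c409c40 (by decide +kernel)
      have a0 := b2 g hg 1 (one_mem _)
      have a1 := b2 g hg _ (mul_mem s1.2 hg)
      have a2 := b2 g hg _ (mul_mem s2.2 hg)
      rw [one_smul, show enc O0 = 0x149f from enc_dec (by norm_num)] at a0
      rw [mul_smul, s1.1.enc_smul] at a1
      rw [mul_smul, s2.1.enc_smul] at a2
      have hX := (smul_mem_octads g O0).2 O0_mem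
      have a3 := (card_eq_pc _).symm.trans hX.2
      refine forall_CC (P := fun S => S = g • O0 → S ∈ T0)
        (fun m => !(Nat.beq (pc m) 8) || !(Nat.beq m 0x149f || Nat.beq (Nat.land m 0x149f) 0) ||
          !(Nat.beq m (img 0x5c613a22d56a5ecba9d2394c418820 m) || Nat.beq (Nat.land m (img 0x5c613a22d56a5ecba9d2394c418820 m)) 0) ||
          !(Nat.beq m (img 0x7a6f55ce50a38ca8b1051b6c409c40 m) || Nat.beq (Nat.land m (img 0x7a6f55ce50a38ca8b1051b6c409c40 m)) 0) ||
          (Nat.beq m 0x149f || Nat.beq m 0xf6840 || Nat.beq m 0xf08320)) (by decide +kernel) (fun S h e => ?_) _ hX.1 rfl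
      subst e
      rw [a0, a1, a2, a3] at h
      simp only [Nat.beq_refl, Bool.not_true, Bool.false_or, Bool.or_eq_true, Nat.beq_eq] at h
      rw [← dec_enc (g • O0), T0_eq]
      rcases h with (h | h) | h <;> rw [h] <;> decide +kernel
    have b4 : ∀ o ∈ T0, o ∈ orb H O0 := by
      intro o ho
      obtain ⟨i, hi, rfl⟩ := mem_decF.1 ho
      obtain ⟨j, hj, h1⟩ := (by decide +kernel : ∀ i < 3, ∃ j < 24, ∀ k < 3, (lane 24 mT0 k).testBit j = true → k = i) i hi
      obtain ⟨g, hg, e⟩ := tr (pt j)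
      obtain ⟨k, hk, e'⟩ := mem_decF.1 (b3 g hg)
      have h2 : pt j ∈ dec (lane 24 mT0 k) := by rw [e', ← e]; exact smul_mem_smul_finset (by decide +kernel)
      exact ⟨g, hg, by rw [← e', h1 k hk ((pt_mem_dec hj).1 h2)]⟩
    have := Subgroup.card_le_of_le (stab_of_iff (K := H) (s := T0) (P := (· ∈ orb H O0)) (fun k hk p => smul_mem_orb_iff hk)
      fun o => ⟨b4 o, by rintro ⟨g, hg, rfl⟩; exact b3 g hg⟩)
    rw [trios_main.2] at this
    omega
  · have cT : Nat.card (stabilizer M24 (dec 0x1411)) = 23040 := card_stab_set (k := 4) (by decide +kernel) (by norm_num) (by decide)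
    have h1 := card_orb (H ⊓ stabilizer M24 (dec 0x1411)) (pt 0)
    have h2 := (ck.fxS 0x1411).orbP_le (gs := [0xa968f8ca66bb600592c90b90c188ea]) (by decide +kernel) (j := 0) (by norm_num)
    have h3 : Nat.card ↥(H ⊓ stabilizer M24 (pt 0)) ≤ Nat.card ↥(H ⊓ stabilizer M24 (dec 0x1411) ⊓ stabilizer M24 (pt 0)) :=
      Subgroup.card_le_of_le (le_inf (le_inf inf_le_left h) inf_le_right)
    have h4 := Nat.mul_le_mul ((by decide +kernel : 4 ≤ _).trans h2) h3
    have h6 : stabilizer M24 (dec 0x1411) ≤ H := (eq_of_le_of_card_le (inf_le_right (a := H)) (by omega)).ge.trans inf_le_left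
    have h7 := Subgroup.card_le_of_le (inf_le_right : H ⊓ stabilizer M24 (dec 0x1411) ≤ _)
    have h8 := card_orb (stabilizer M24 Sx) (dec 0x1411)
    have h9 := card_orb (H ⊓ stabilizer M24 Sx) (dec 0x1411)
    have g1 : (orb (stabilizer M24 Sx) (dec 0x1411)).ncard ≤ 6 := by
      rw [← Sx_mem.1, ← Set.ncard_coe_finset]
      exact Set.ncard_le_ncard (orb_subset (fun g hg b hb => (smul_mem_of_stab hg).2 hb) (by decide +kernel))
    have g2 : Ck (inL [0x458b45ce50ab8c3889f75352120187, 0x38a63341d78a2c06b1614d2442d5ea]) (H ⊓ stabilizer M24 Sx) := ck_inL (by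
      simp only [List.forall_mem_cons, List.not_mem_nil, false_imp_iff, implies_true, and_true]
      exact ⟨(ck.fxF 6 _) _ (by decide +kernel), ((ckS 0x1411).mono h6).fxF 6 _ _ (by decide +kernel)⟩)
    have g3 := (by decide +kernel : 6 ≤ _).trans (g2.orbS_le (allL_iff.2 fun s hs => anyL_iff.2 ⟨s, hs, Nat.beq_refl _⟩)
      hC 512 10 (m := 0x1411) (by norm_num))
    have g4 : Nat.card ↥(stabilizer M24 Sx ⊓ stabilizer M24 (dec 0x1411)) ≤
        Nat.card ↥(H ⊓ stabilizer M24 Sx ⊓ stabilizer M24 (dec 0x1411)) :=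
      Subgroup.card_le_of_le (le_inf (le_inf (inf_le_right.trans h6) inf_le_left) inf_le_right)
    have g5 := Nat.mul_le_mul (g1.trans g3) g4
    have g6 := card_Sx
    exact (eq_of_le_of_card_le (inf_le_left (b := stabilizer M24 Sx)) (by omega)).symm.trans
      (eq_of_le_of_card_le inf_le_right (by omega))
  · exfalso
    have s1 := (ck.fxS 0x1400) 0xa21f79ca2eac0ca5b0b63b52018824 (by decide +kernel)
    have h1 : H ⊓ stabilizer M24 (pt 0) ≤ H ⊓ stabilizer M24 (dec 0x1400) := le_inf inf_le_left fun k hk => by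
      have h2 : k • dec 0x1401 = dec 0x1401 := (orb_compl h).1 hk
      rw [show dec 0x1400 = (dec 0x1401).erase (pt 0) by decide +kernel]
      show k • _ = _
      rw [smul_finset_def, image_erase (MulAction.injective k), ← smul_finset_def, h2, show k • pt 0 = pt 0 from hk.2]
    have h2 := (orb_compl (K := H ⊓ stabilizer M24 (dec 0x1400)) (a := pt 1) (m := 0x1400) fun p => ⟨fun hp => by
      obtain ⟨k, hk, rfl⟩ := hp
      rw [smul_mem_of_stab hk.2]; decide +kernel, fun hp => by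
      by_cases e : p = pt 0
      · rw [e, show pt 0 = E 0xa21f79ca2eac0ca5b0b63b52018824 • pt 4 by rw [s1.1.smul_pt (by norm_num)]; rfl]
        exact smul_mem_orb s1.2 (orb_mono h1 _ ((h _).2 (by decide +kernel)))
      · exact orb_mono h1 _ ((h _).2 ((by decide +kernel : ∀ p, p ∉ dec 0x1400 → p ≠ pt 0 → p ∉ dec 0x1401) p hp e))⟩).2
    exact h11 (Dvd.dvd.trans (by decide +kernel) (h2.trans (Subgroup.card_dvd_of_le inf_le_left)))

theorem fix_mod {g : M24} {p : ℕ} (hp : p.Prime) (hg : g ^ p = 1) (B : Finset GolayPt) (hB : ∀ b ∈ B, g • b ∈ B) :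
    B.card ≡ (B.filter fun b => g • b = b).card [MOD p] := by
  have := Fact.mk hp
  let f : Function.End B := fun b => ⟨g • b.1, hB _ b.2⟩
  have h1 : ∀ n (b : B), ((f ^ n) b).1 = g ^ n • b.1 := by
    intro n
    induction n with
    | zero => intro b; simp only [pow_zero, one_smul]; rfl
    | succ n ih => intro b; rw [pow_succ, pow_succ, mul_smul]; exact ih (f b)
  have h2 := Equiv.Perm.card_fixedPoints_modEq (f := f) (p := p) (n := 1)
    (funext fun b => Subtype.ext (by rw [pow_one, h1, hg, one_smul]; rfl))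
  rw [Fintype.card_coe] at h2
  convert h2 using 1
  rw [← Fintype.card_coe]
  exact Fintype.card_congr ⟨fun b => ⟨⟨b.1, (mem_filter.1 b.2).1⟩, Subtype.ext (mem_filter.1 b.2).2⟩,
    fun b => ⟨b.1.1, mem_filter.2 ⟨b.1.2, congrArg Subtype.val b.2⟩⟩, fun _ => rfl, fun _ => rfl⟩

theorem four_fix {g : M24} (hg : orderOf g = 7) {p q r s : GolayPt} (h : [p, q, r, s].Nodup) (h1 : g • p = p)
    (h2 : g • q = q) (h3 : g • r = r) (h4 : g • s = s) : False := by
  have := Subgroup.orderOf_dvd_natCard (stabilizer M24 p ⊓ stabilizer M24 q ⊓ stabilizer M24 r ⊓ stabilizer M24 s)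
    (x := g) ⟨⟨⟨h1, h2⟩, h3⟩, h4⟩
  rw [hg, card_stab4 h] at this
  exact absurd this (by decide)

theorem ex7 {K : Subgroup M24} (h7 : 7 ∣ Nat.card K) : ∃ g ∈ K, orderOf g = 7 := by
  have := Fact.mk (by norm_num : Nat.Prime 7)
  obtain ⟨⟨x, hx⟩, h2⟩ := exists_prime_orderOf_dvd_card' (G := K) 7 h7
  exact ⟨x, hx, (Subgroup.orderOf_mk _ _).symm.trans h2⟩

theorem loc11 {K : Subgroup M24} (hb : E tβ ∈ K) (h7 : 7 ∣ Nat.card K) (h23 : ¬ 23 ∣ Nat.card K) :
    (∀ p, p ∈ orb K (pt 1) ↔ p ∉ dec 0x800001) ∨ ∀ p, p ∈ orb K (pt 1) := by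
  classical
  have ck : Ck (inL [tβ]) K := ck_inL (by simp [gβ, hb])
  have o1 := ck.sub_orb [tβ] 1 0x5335e (by decide +kernel)
  have o5 := ck.sub_orb [tβ] 5 0x7acca0 (by decide +kernel)
  by_cases h5 : pt 5 ∈ orb K (pt 1)
  · have key : ∀ m, dec m ⊆ dec 0x800001 → (pt 0 ∈ orb K (pt 1) ↔ pt 0 ∉ dec m) →
        (pt 23 ∈ orb K (pt 1) ↔ pt 23 ∉ dec m) → ∀ p, p ∈ orb K (pt 1) ↔ p ∉ dec m := by
      intro m a1 a3 a4 p
      rcases (by decide +kernel : ∀ p, p ∈ dec 0x5335e ∧ p ∉ dec 0x800001 ∨ p ∈ dec 0x7acca0 ∧ p ∉ dec 0x800001 ∨ p = pt 0 ∨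
        p = pt 23) p with h | h | rfl | rfl
      · exact iff_of_true (o1 p h.1) fun h' => h.2 (a1 h')
      · exact iff_of_true ((mem_orb_of (o5 p h.1)).2 h5) fun h' => h.2 (a1 h')
      · exact a3
      · exact a4
    by_cases h4 : pt 0 ∈ orb K (pt 1) <;> by_cases h10 : pt 23 ∈ orb K (pt 1)
    · exact Or.inr fun p => (key 0 (by decide +kernel) (iff_of_true h4 (by decide +kernel))
        (iff_of_true h10 (by decide +kernel)) p).2 (by simp)
    · exact absurd (orb_compl (key 0x800000 (by decide +kernel) (iff_of_true h4 (by decide +kernel))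
        (iff_of_false h10 (by decide +kernel)))).2 (by rwa [show 24 - pc 0x800000 = 23 by decide +kernel])
    · exact absurd (orb_compl (key 1 (by decide +kernel) (iff_of_false h4 (by decide +kernel))
        (iff_of_true h10 (by decide +kernel)))).2 (by rwa [show 24 - pc 1 = 23 by decide +kernel])
    · exact Or.inl (key _ (by decide +kernel) (iff_of_false h4 (by decide +kernel)) (iff_of_false h10 (by decide +kernel)))
  · exfalso
    obtain ⟨g, hg, ho⟩ := ex7 h7
    have h1 := fix_mod (by norm_num) (ho ▸ pow_orderOf_eq_one g) (univ.filter (· ∈ orb K (pt 1)))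
      fun b hb => mem_filter.2 ⟨mem_univ _, smul_mem_orb hg (mem_filter.1 hb).2⟩
    have h2 : (dec 0x5335e).card ≤ (univ.filter (· ∈ orb K (pt 1))).card :=
      card_le_card fun p hp => mem_filter.2 ⟨mem_univ _, o1 p hp⟩
    have h3 : (univ.filter (· ∈ orb K (pt 1))).card ≤ (dec 0x85335f).card :=
      card_le_card fun p hp => by_contra fun h' => h5 ((mem_orb_of (o5 p
        ((by decide +kernel : ∀ p, p ∉ dec 0x85335f → p ∈ dec 0x7acca0) p h'))).1 (mem_filter.1 hp).2)
    rw [show (dec 0x5335e).card = 11 by decide +kernel] at h2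
    rw [show (dec 0x85335f).card = 13 by decide +kernel] at h3
    unfold Nat.ModEq at h1
    obtain ⟨a, ha, b, hb, c, hc, d, hd, h⟩ := three_lt_card.1 (show 3 < ((univ.filter (· ∈ orb K (pt 1))).filter
      fun b => g • b = b).card by omega)
    exact four_fix ho (by simp [h]) (mem_filter.1 ha).2 (mem_filter.1 hb).2 (mem_filter.1 hc).2 (mem_filter.1 hd).2

theorem loc276 {H : Subgroup M24} (hb : E tβ ∈ H) (hc : Nat.card H = 887040) : H = stabilizer M24 (dec 0x800001) := by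
  rcases loc11 hb (by rw [hc]; decide) (by rw [hc]; decide) with h | tr
  · exact eq_of_le_of_card_le (orb_compl h).1
      (by rw [hc, card_stab_set (k := 2) (e := 887040) (by decide +kernel) (by norm_num) (by decide)])
  exfalso
  have c1 := card_trans tr (pt 23)
  have c2 : Nat.card ↥(H ⊓ stabilizer M24 (pt 23)) = 36960 := by omega
  have fb : ∀ p, E tβ • p = p ↔ p ∈ dec 0x800001 := fun p => (gβ.fix_iff (by decide +kernel) p).symm
  have two : ∀ p, p ∈ dec 0x800001 ↔ p = pt 0 ∨ p = pt 23 := by decide +kernel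
  have ne : pt 0 ≠ pt 23 := by decide
  have b0 := (fb _).2 ((two _).2 (Or.inl rfl))
  rcases loc11 (K := H ⊓ stabilizer M24 (pt 23)) ⟨hb, (fb _).2 ((two _).2 (Or.inr rfl))⟩ (by rw [c2]; decide)
    (by rw [c2]; decide) with h | h
  swap
  · obtain ⟨k, hk, e⟩ := h (pt 23)
    rw [← show k • pt 23 = pt 23 from hk.2, smul_left_cancel_iff] at e
    exact absurd e (by decide)
  have k1 : ∀ k ∈ H, k • pt 23 = pt 23 → k • pt 0 = pt 0 := fun k hk e =>
    ((two _).1 ((smul_mem_of_stab ((orb_compl h).1 ⟨hk, e⟩)).2 ((two _).2 (Or.inl rfl)))).resolve_right fun e' =>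
      ne (smul_left_cancel k (e'.trans e.symm))
  have k2 : ∀ u ∈ H, ∀ k ∈ H, k • u • pt 23 = u • pt 23 → k • u • pt 0 = u • pt 0 := fun u hu k hk e => by
    have := k1 (u⁻¹ * k * u) (mul_mem (mul_mem (inv_mem hu) hk) hu) (by rw [mul_smul, mul_smul, e, inv_smul_smul])
    rwa [mul_smul, mul_smul, inv_smul_eq_iff] at this
  have tr' : ∀ p, ∃ u ∈ H, u • pt 23 = p := fun p => orb_trans (tr _) (tr _)
  obtain ⟨u, hu, e1⟩ := tr' (pt 0)
  have e2 : u • pt 0 = pt 23 := ((two _).1 ((fb _).1 (k2 u hu _ hb (by rw [e1, b0])))).resolve_left fun e =>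
    ne (smul_left_cancel u (e.trans e1.symm))
  obtain ⟨g, hg, ho⟩ := ex7 (K := H ⊓ stabilizer M24 (pt 23)) (by rw [c2]; decide)
  have h1 := fix_mod (by norm_num) (ho ▸ pow_orderOf_eq_one g) (dec 0x800001)ᶜ
    fun b hb => mem_compl.2 fun h' => mem_compl.1 hb ((smul_mem_of_stab ((orb_compl h).1 hg)).1 h')
  rw [show (dec 0x800001)ᶜ.card = 22 by decide +kernel] at h1
  unfold Nat.ModEq at h1
  obtain ⟨z, hz⟩ := card_pos.1 (show 0 < ((dec 0x800001)ᶜ.filter fun b => g • b = b).card by omega)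
  rw [mem_filter, mem_compl, two, not_or] at hz
  obtain ⟨v, hv, rfl⟩ := tr' z
  have n1 : v • pt 0 ≠ pt 0 := fun e => hz.1.2 (by
    have := k2 u hu v hv (by rw [e1, e])
    rwa [e2] at this)
  have n2 : v • pt 0 ≠ pt 23 := fun e => hz.1.1 (by
    have := k2 u hu (u⁻¹ * v) (mul_mem (inv_mem hu) hv) (by rw [e1, mul_smul, e, inv_smul_eq_iff, e2])
    rwa [e2, mul_smul, inv_smul_eq_iff, e1] at this)
  have n3 : v • pt 0 ≠ v • pt 23 := fun e => ne (smul_left_cancel v e)
  exact four_fix ho (p := v • pt 0) (q := v • pt 23) (r := pt 0) (s := pt 23) (by simp [n1, n2, n3, ne, hz.1.1, hz.1.2])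
    (k2 v hv g hg.1 hz.2) hz.2 (k1 g hg.1 hg.2) hg.2

end H6
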